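import Mathlib

set_option autoImplicit false

namespace Cfsg.Agent.Lib.Helper11

section ElemPSL4

/-- a group of exponent two is commutative -/
theorem comm_of_sq_eq_one_elem {V : Type*} [Group V] (hV : ∀ v : V, v ^ 2 = 1) (a b : V) :
    a * b = b * a := by
  have hinv : ∀ v : V, v⁻¹ = v := fun v =>
    inv_eq_of_mul_eq_one_left (by rw [← sq]; exact hV v)
  calc a * b = (a * b)⁻¹ := (hinv (a * b)).symm
    _ = b⁻¹ * a⁻¹ := mul_inv_rev a b
    _ = b * a := by rw [hinv a, hinv b]

/-- endomorphisms of an `F_2`-space with at most 16 elements embed in the `4 × 4` matrices -/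
theorem exists_end_to_matrix4 (W : Type*) [AddCommGroup W] [Module (ZMod 2) W] [Finite W]
    (hcard : Nat.card W ≤ 2 ^ 4) :
    ∃ J : Module.End (ZMod 2) W →* Matrix (Fin 4) (Fin 4) (ZMod 2), Function.Injective J := by
  classical
  have hfin : Module.Finite (ZMod 2) W := Module.Finite.of_finite
  obtain ⟨d, hd⟩ : ∃ d, d = Module.finrank (ZMod 2) W := ⟨_, rfl⟩
  have hcW : Nat.card W = 2 ^ d := by
    have h := Module.natCard_eq_pow_finrank (K := ZMod 2) (V := W)
    rw [h, Nat.card_zmod, hd]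
  have hd4 : d ≤ 4 := by
    rw [hcW] at hcard
    exact (Nat.pow_le_pow_iff_right (by norm_num)).mp hcard
  have hrank : Module.finrank (ZMod 2) (W × (Fin (4 - d) → ZMod 2)) = 4 := by
    rw [Module.finrank_prod, Module.finrank_fin_fun, ← hd]; omega
  let b : Module.Basis (Fin 4) (ZMod 2) (W × (Fin (4 - d) → ZMod 2)) :=
    Module.finBasisOfFinrankEq _ _ hrank
  refine ⟨{ toFun := fun f => LinearMap.toMatrix b b (f.prodMap LinearMap.id)
            map_one' := ?_
            map_mul' := ?_ }, ?_⟩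
  · have h1 : (1 : Module.End (ZMod 2) W).prodMap
        (LinearMap.id : (Fin (4 - d) → ZMod 2) →ₗ[ZMod 2] (Fin (4 - d) → ZMod 2)) =
        LinearMap.id := by
      apply LinearMap.ext; rintro ⟨w, k⟩; rfl
    show LinearMap.toMatrix b b _ = 1
    rw [h1, LinearMap.toMatrix_id]
  · intro f g
    have h1 : (f * g).prodMap
        (LinearMap.id : (Fin (4 - d) → ZMod 2) →ₗ[ZMod 2] (Fin (4 - d) → ZMod 2)) =
        (f.prodMap LinearMap.id) ∘ₗ (g.prodMap LinearMap.id) := by
      apply LinearMap.ext; rintro ⟨w, k⟩; rfl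
    show LinearMap.toMatrix b b _ = LinearMap.toMatrix b b _ * LinearMap.toMatrix b b _
    rw [h1, LinearMap.toMatrix_comp b b b]
  · intro f g hfg
    have h1 : f.prodMap
        (LinearMap.id : (Fin (4 - d) → ZMod 2) →ₗ[ZMod 2] (Fin (4 - d) → ZMod 2)) =
        g.prodMap LinearMap.id := (LinearMap.toMatrix b b).injective hfg
    apply LinearMap.ext; intro w
    exact congrArg Prod.fst (LinearMap.congr_fun h1 (w, 0))

/-- a monoid hom from a group to the `4 × 4` matrices over `F_2` gives a hom to `PSL_4(2)` with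
the same kernel -/
theorem exists_hom_psl4_of_matrix {Q : Type*} [Group Q]
    (ψ : Q →* Matrix (Fin 4) (Fin 4) (ZMod 2)) :
    ∃ f : Q →* Matrix.ProjectiveSpecialLinearGroup (Fin 4) (ZMod 2),
      ∀ g : Q, f g = 1 → ψ g = 1 := by
  have hdet : ∀ g : Q, (ψ g).det = 1 := by
    intro g
    have h1 : ψ g * ψ g⁻¹ = 1 := by rw [← map_mul, mul_inv_cancel, map_one]
    have h2 : (ψ g).det * (ψ g⁻¹).det = 1 := by rw [← Matrix.det_mul, h1, Matrix.det_one]
    have h3 : (ψ g).det ≠ 0 := by
      intro h0; rw [h0, zero_mul] at h2; exact zero_ne_one h2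
    exact (by decide : ∀ a : ZMod 2, a ≠ 0 → a = 1) _ h3
  let σ : Q →* Matrix.SpecialLinearGroup (Fin 4) (ZMod 2) :=
    { toFun := fun g => ⟨ψ g, hdet g⟩
      map_one' := Subtype.ext (map_one ψ)
      map_mul' := fun a b => Subtype.ext (map_mul ψ a b) }
  refine ⟨(QuotientGroup.mk'
    (Subgroup.center (Matrix.SpecialLinearGroup (Fin 4) (ZMod 2)))).comp σ, ?_⟩
  intro g hg
  have h1 : σ g ∈ Subgroup.center (Matrix.SpecialLinearGroup (Fin 4) (ZMod 2)) :=
    (QuotientGroup.eq_one_iff _).mp hg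
  rw [Matrix.SpecialLinearGroup.mem_center_iff] at h1
  obtain ⟨r, hr, hA⟩ := h1
  have hr1 : r = 1 :=
    (by decide : ∀ a : ZMod 2, a ^ Fintype.card (Fin 4) = 1 → a = 1) r hr
  rw [hr1, map_one] at hA
  exact hA.symm

/-- the automorphism group of an elementary abelian `2`-group of order at most 16 embeds in
`PSL_4(2)` -/
theorem exists_mulAut_hom_psl4_comm {V : Type*} [CommGroup V] [Finite V]
    (hV : ∀ v : V, v ^ 2 = 1) (hcard : Nat.card V ≤ 2 ^ 4) :
    ∃ F : MulAut V →* Matrix.ProjectiveSpecialLinearGroup (Fin 4) (ZMod 2),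
      Function.Injective F := by
  classical
  letI : Module (ZMod 2) (Additive V) := AddCommGroup.zmodModule (n := 2) (fun x => by
    show Additive.ofMul (Additive.toMul x ^ 2) = 0
    rw [hV]; rfl)
  let ρ : MulAut V →* Module.End (ZMod 2) (Additive V) :=
    { toFun := fun α => (MonoidHom.toAdditive α.toMonoidHom).toZModLinearMap 2
      map_one' := by
        apply LinearMap.ext; intro x; rfl
      map_mul' := fun a b => by
        apply LinearMap.ext; intro x; rfl }
  have hρ : Function.Injective ρ := by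
    intro α β hαβ
    apply MulEquiv.ext; intro v
    have h := LinearMap.congr_fun hαβ (Additive.ofMul v)
    exact h
  have hcW : Nat.card (Additive V) ≤ 2 ^ 4 := hcard
  obtain ⟨J, hJ⟩ := exists_end_to_matrix4 (Additive V) hcW
  obtain ⟨f, hf⟩ := exists_hom_psl4_of_matrix (J.comp ρ)
  refine ⟨f, ?_⟩
  rw [injective_iff_map_eq_one]
  intro α hα
  have h1 : J (ρ α) = 1 := hf α hα
  have h2 : ρ α = 1 := hJ (by rw [h1, map_one])
  exact hρ (by rw [h2, map_one])

/-- the automorphism group of a group of exponent two and order at most 16 embeds in `PSL_4(2)` -/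
theorem exists_mulAut_hom_psl4 {V : Type*} [Group V] [Finite V]
    (hV : ∀ v : V, v ^ 2 = 1) (hcard : Nat.card V ≤ 2 ^ 4) :
    ∃ F : MulAut V →* Matrix.ProjectiveSpecialLinearGroup (Fin 4) (ZMod 2),
      Function.Injective F := by
  letI : CommGroup V := { ‹Group V› with mul_comm := comm_of_sq_eq_one_elem hV }
  exact exists_mulAut_hom_psl4_comm hV hcard

end ElemPSL4

end Cfsg.Agent.Lib.Helper11
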