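import Mathlib
import Cfsg.Prelude.Def_Local
import Cfsg.Prelude.Def_CaseTheorems
import Cfsg.Agent.Lib.Helper11.Basic
import Cfsg.Agent.Lib.Helper11.PConstrained
import Cfsg.Agent.Lib.Helper11.FStarLocal
import Cfsg.Agent.Lib.Helper11.ElemPSL4
import Cfsg.Agent.Lib.Helper18.Frattini
import Cfsg.Agent.S0012
import Cfsg.Agent.S0029
import Cfsg.Agent.S0256

set_option autoImplicit false

namespace Cfsg.Agent.Lib.Helper11

open scoped commutatorElement

section A8Emb

/-- If `O_{p'}(X) = 1` then `O_{p',p}(X) = O_p(X)`. -/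
theorem pPrimePCore_eq_pCore_of_pPrimeCore_eq_bot {X : Type*} [Group X] [Finite X] (p : ℕ)
    [Fact p.Prime] (hO : Cfsg.pPrimeCore p X = ⊥) : Cfsg.pPrimePCore p X = Cfsg.pCore p X := by
  obtain ⟨Q⟩ : Nonempty (Sylow p ↥(Cfsg.pPrimePCore p X)) := inferInstance
  have hf := (sylow_pPrimePCore_facts p Q).1
  rw [hO, bot_sup_eq] at hf
  have hpg : IsPGroup p (Cfsg.pPrimePCore p X) := by
    have h := sylow_map_subtype_isPGroup Q
    rw [hf] at h
    exact h
  apply le_antisymm
  · exact le_pCore_of_normal p (pPrimePCore_normal p) hpg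
  · intro x hx
    show QuotientGroup.mk' (Cfsg.pPrimeCore p X) x ∈ Cfsg.pCore p (X ⧸ Cfsg.pPrimeCore p X)
    have h1 : (Cfsg.pCore p X).map (QuotientGroup.mk' (Cfsg.pPrimeCore p X)) ≤
        Cfsg.pCore p (X ⧸ Cfsg.pPrimeCore p X) := by
      apply le_pCore_of_normal p
      · exact Subgroup.Normal.map inferInstance _ (QuotientGroup.mk'_surjective _)
      · exact (pCore_isPGroup p).map _
    exact h1 (Subgroup.mem_map_of_mem _ hx)

/-- In a `p`-constrained group with `O_{p'}(X) = 1`, `O_p(X)` contains its centralizer. -/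
theorem centralizer_pCore_le_of_isPConstrained {X : Type*} [Group X] [Finite X] (p : ℕ)
    [Fact p.Prime] (hc : Cfsg.IsPConstrained p X) (hO : Cfsg.pPrimeCore p X = ⊥) :
    Subgroup.centralizer (Cfsg.pCore p X : Set X) ≤ Cfsg.pCore p X := by
  obtain ⟨Q⟩ : Nonempty (Sylow p ↥(Cfsg.pPrimePCore p X)) := inferInstance
  have hf := (sylow_pPrimePCore_facts p Q).1
  rw [hO, bot_sup_eq] at hf
  have h1 := hc Q
  rw [hf, pPrimePCore_eq_pCore_of_pPrimeCore_eq_bot p hO] at h1
  exact h1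

/-- If `O_p(X)` contains its centralizer, an element acting trivially on the Frattini quotient
of `O_p(X)` lies in `O_p(X)` (the argument of the team file for S4218, with the centralizer
hypothesis made explicit). -/
theorem mem_pCore_of_trivial_on_frattini_quot {X : Type*} [Group X] [Finite X] {p : ℕ}
    [Fact p.Prime]
    (hcent0 : Subgroup.centralizer (Cfsg.pCore p X : Set X) ≤ Cfsg.pCore p X) (h : X)
    (hh : ∀ x ∈ Cfsg.pCore p X, h * x * h⁻¹ * x⁻¹ ∈
      (frattini ↥(Cfsg.pCore p X)).map (Cfsg.pCore p X).subtype) :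
    h ∈ Cfsg.pCore p X := by
  have hPn0 : (Cfsg.pCore p X).Normal := inferInstance
  have hPp0 : IsPGroup p (Cfsg.pCore p X) := pCore_isPGroup p
  have hle0 : ∀ C : Subgroup X, C.Normal → IsPGroup p C → C ≤ Cfsg.pCore p X :=
    fun C h1 h2 => le_pCore_of_normal p h1 h2
  obtain ⟨P, hPdef⟩ : ∃ P : Subgroup X, P = Cfsg.pCore p X := ⟨_, rfl⟩
  rw [← hPdef] at hh hcent0 hPn0 hPp0 hle0 ⊢
  have hPn : P.Normal := hPn0
  have hPp : IsPGroup p P := hPp0
  have hcent : Subgroup.centralizer (P : Set X) ≤ P := hcent0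
  have hΦn0 : ((frattini ↥P).map P.subtype).Normal := by
    have h1 := Cfsg.Agent.Lib.Helper18.normalizer_le_normalizer_map_frattini P
    have h2 : Subgroup.normalizer (P : Set X) = ⊤ := Subgroup.normalizer_eq_top_iff.mpr hPn
    rw [h2, top_le_iff] at h1
    exact Subgroup.normalizer_eq_top_iff.mp h1
  obtain ⟨Φ, hΦdef⟩ : ∃ Φ : Subgroup X, Φ = (frattini ↥P).map P.subtype := ⟨_, rfl⟩
  rw [← hΦdef] at hh hΦn0
  have hΦn : Φ.Normal := hΦn0
  let C : Subgroup X :=
    { carrier := {c | ∀ x ∈ P, c * x * c⁻¹ * x⁻¹ ∈ Φ}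
      one_mem' := by
        show ∀ x ∈ P, 1 * x * 1⁻¹ * x⁻¹ ∈ Φ
        intro x hx
        simp [Φ.one_mem]
      mul_mem' := by
        intro a b ha hb
        show ∀ x ∈ P, a * b * x * (a * b)⁻¹ * x⁻¹ ∈ Φ
        intro x hx
        have e : a * b * x * (a * b)⁻¹ * x⁻¹
            = a * (b * x * b⁻¹ * x⁻¹) * a⁻¹ * (a * x * a⁻¹ * x⁻¹) := by group
        rw [e]
        exact Φ.mul_mem (hΦn.conj_mem _ (hb x hx) a) (ha x hx)
      inv_mem' := by
        intro a ha
        show ∀ x ∈ P, a⁻¹ * x * a⁻¹⁻¹ * x⁻¹ ∈ Φ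
        intro x hx
        have e : a⁻¹ * x * a⁻¹⁻¹ * x⁻¹ = a⁻¹ * (a * x * a⁻¹ * x⁻¹)⁻¹ * a⁻¹⁻¹ := by group
        rw [e]
        exact hΦn.conj_mem _ (Φ.inv_mem (ha x hx)) a⁻¹ }
  have hCmem : ∀ c : X, c ∈ C ↔ ∀ x ∈ P, c * x * c⁻¹ * x⁻¹ ∈ Φ := fun c => Iff.rfl
  have hCn : C.Normal := by
    constructor
    intro c hc k
    rw [hCmem] at hc ⊢
    intro x hx
    have hx' : k⁻¹ * x * k ∈ P := by
      have := hPn.conj_mem x hx k⁻¹
      simpa using this
    have e : k * c * k⁻¹ * x * (k * c * k⁻¹)⁻¹ * x⁻¹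
        = k * (c * (k⁻¹ * x * k) * c⁻¹ * (k⁻¹ * x * k)⁻¹) * k⁻¹ := by group
    rw [e]
    exact hΦn.conj_mem _ (hc _ hx') k
  have hpp : p.Prime := Fact.out
  have hCp : IsPGroup p C := by
    rintro ⟨c, hc⟩
    obtain ⟨k, m, hm, hkm⟩ := Nat.exists_eq_pow_mul_and_not_dvd (orderOf_pos c).ne' p hpp.ne_one
    refine ⟨k, ?_⟩
    apply Subtype.ext
    rw [Subgroup.coe_pow]
    show c ^ p ^ k = 1
    obtain ⟨c', hc'def⟩ : ∃ c', c' = c ^ p ^ k := ⟨_, rfl⟩
    rw [← hc'def]
    have hc'C : c' ∈ C := hc'def ▸ C.pow_mem hc _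
    have hc'm : c' ^ m = 1 := by
      rw [hc'def, ← pow_mul, ← hkm]; exact pow_orderOf_eq_one c
    have hmp : Nat.Coprime m p := ((Nat.Prime.coprime_iff_not_dvd hpp).mpr hm).symm
    have hA : Subgroup.zpowers c' ≤ Subgroup.centralizer (P : Set X) := by
      apply Cfsg.Agent.S0029.result (Subgroup.zpowers c') P
      · rw [Subgroup.normalizer_eq_top_iff.mpr hPn]; exact le_top
      · have h1 : Nat.card (Subgroup.zpowers c') ∣ m := by
          rw [Nat.card_zpowers]; exact orderOf_dvd_of_pow_eq_one hc'm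
        obtain ⟨j, hj⟩ := IsPGroup.iff_card.mp (hPp.to_subgroup (frattini ↥P))
        rw [hj]
        exact Nat.Coprime.pow_right _ (Nat.Coprime.coprime_dvd_left h1 hmp)
      · intro a ha x hx
        rw [← hΦdef]
        exact (hCmem a).mp ((Subgroup.zpowers_le.mpr hc'C) ha) x hx
    have hc'P : c' ∈ P := hcent (hA (Subgroup.mem_zpowers c'))
    obtain ⟨j, hj⟩ := hPp ⟨c', hc'P⟩
    have hj' : c' ^ p ^ j = 1 := congrArg Subtype.val hj
    have h1 : orderOf c' ∣ m := orderOf_dvd_of_pow_eq_one hc'm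
    have h2 : orderOf c' ∣ p ^ j := orderOf_dvd_of_pow_eq_one hj'
    have h3 : Nat.Coprime m (p ^ j) := Nat.Coprime.pow_right _ hmp
    have h4 : orderOf c' = 1 := Nat.eq_one_of_dvd_coprimes h3 h1 h2
    exact orderOf_eq_one_iff.mp h4
  exact hle0 C hCn hCp ((hCmem h).mpr hh)

/-- A finite group acting on the Frattini quotient of a normal `2`-subgroup `P` of sectional
rank at most 4: a homomorphism to `A_8` whose kernel consists of `P` and of elements acting
trivially on `P / Φ(P)`. -/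
theorem exists_hom_a8 {X : Type*} [Group X] [Finite X] (P : Subgroup X) [P.Normal]
    (hPp : IsPGroup 2 P) (h4 : Cfsg.SectionalPRankLE 2 4 ↥P) :
    ∃ f : X →* ↥(alternatingGroup (Fin 8)),
      (∀ g ∈ P, f g = 1) ∧
      ∀ g : X, f g = 1 → ∀ x ∈ P, g * x * g⁻¹ * x⁻¹ ∈ (frattini ↥P).map P.subtype := by
  classical
  haveI : Fact (Nat.Prime 2) := ⟨Nat.prime_two⟩
  obtain ⟨hcomm, hsq⟩ := Cfsg.Agent.S0012.result 2 hPp
  have hVsq : ∀ v : ↥P ⧸ frattini ↥P, v ^ 2 = 1 := by
    intro v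
    induction v using QuotientGroup.induction_on with
    | H x =>
      rw [← QuotientGroup.mk_pow]
      exact (QuotientGroup.eq_one_iff _).mpr (hsq x)
  have hcard : Nat.card (↥P ⧸ frattini ↥P) ≤ 2 ^ 4 := by
    have hsq' : ∀ a : ↥(⊤ : Subgroup ↥P) ⧸ (frattini ↥P).subgroupOf ⊤, a ^ 2 = 1 := by
      intro a
      induction a using QuotientGroup.induction_on with
      | H y =>
        rw [← QuotientGroup.mk_pow]
        refine (QuotientGroup.eq_one_iff _).mpr ?_
        rw [Subgroup.mem_subgroupOf]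
        exact hsq (y : ↥P)
    have h5 := h4 ⊤ ((frattini ↥P).subgroupOf ⊤) ⊤
      ⟨⟨fun a b => Subtype.ext (comm_of_sq_eq_one_elem hsq' a.1 b.1)⟩⟩ (fun a _ => hsq' a)
    rw [Subgroup.card_top, ← Subgroup.index_eq_card] at h5
    rw [← Subgroup.index_eq_card]
    have h6 : ((frattini ↥P).subgroupOf ⊤).index = (frattini ↥P).index :=
      Subgroup.relIndex_top_right _
    rw [← h6]; exact h5
  have hchar : ∀ g : X, (frattini ↥P).map
      ((MulAut.conjNormal g : MulAut ↥P) : ↥P →* ↥P) = frattini ↥P :=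
    fun g => (Subgroup.characteristic_iff_map_eq.mp inferInstance) _
  let φ : X →* MulAut (↥P ⧸ frattini ↥P) :=
    { toFun := fun g => QuotientGroup.congr (frattini ↥P) (frattini ↥P)
        (MulAut.conjNormal g) (hchar g)
      map_one' := by
        apply MulEquiv.ext; intro v
        induction v using QuotientGroup.induction_on with
        | H x => simp
      map_mul' := fun a b => by
        apply MulEquiv.ext; intro v
        induction v using QuotientGroup.induction_on with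
        | H x => simp }
  have hφmk : ∀ (g : X) (x : ↥P), φ g (QuotientGroup.mk x) =
      QuotientGroup.mk (MulAut.conjNormal g x) := fun g x => rfl
  obtain ⟨F, hF⟩ := exists_mulAut_hom_psl4 hVsq hcard
  obtain ⟨E⟩ := Cfsg.Agent.S0256.result (F := ZMod 2) (ZMod.card 2)
  have hker : ∀ g : X, (E.toMonoidHom.comp (F.comp φ)) g = 1 ↔ φ g = 1 := by
    intro g
    constructor
    · intro h
      have h1 : E (F (φ g)) = 1 := h
      have h2 : F (φ g) = 1 := E.injective (by rw [h1, map_one])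
      exact hF (by rw [h2, map_one])
    · intro h
      show E (F (φ g)) = 1
      rw [h, map_one, map_one]
  refine ⟨E.toMonoidHom.comp (F.comp φ), ?_, ?_⟩
  · intro g hg
    rw [hker]
    apply MulEquiv.ext; intro v
    induction v using QuotientGroup.induction_on with
    | H x =>
      rw [hφmk]
      show (QuotientGroup.mk (MulAut.conjNormal g x) : ↥P ⧸ frattini ↥P) = QuotientGroup.mk x
      rw [eq_comm, QuotientGroup.eq]
      apply hcomm
      have h1 : x⁻¹ * (MulAut.conjNormal g x) = ⁅x⁻¹, (⟨g, hg⟩ : ↥P)⁆ := by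
        apply Subtype.ext
        simp [commutatorElement_def, MulAut.conjNormal_apply, mul_assoc]
      rw [h1, commutator_def]
      exact Subgroup.commutator_mem_commutator (Subgroup.mem_top _) (Subgroup.mem_top _)
  · intro g hg x hx
    have hφ1 : φ g = 1 := (hker g).mp hg
    have h1 : φ g (QuotientGroup.mk (⟨x, hx⟩ : ↥P)) = QuotientGroup.mk (⟨x, hx⟩ : ↥P) := by
      rw [hφ1]; rfl
    rw [hφmk] at h1
    have h2 : (QuotientGroup.mk ((MulAut.conjNormal g (⟨x, hx⟩ : ↥P)) * (⟨x, hx⟩ : ↥P)⁻¹) :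
        ↥P ⧸ frattini ↥P) = 1 := by
      rw [QuotientGroup.mk_mul, QuotientGroup.mk_inv, h1, mul_inv_cancel]
    have h3 := (QuotientGroup.eq_one_iff _).mp h2
    refine Subgroup.mem_map.mpr ⟨_, h3, ?_⟩
    simp [MulAut.conjNormal_apply]

end A8Emb

end Cfsg.Agent.Lib.Helper11
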