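import Mathlib
import Cfsg.Agent.Lib.Helper11.BG7d

set_option autoImplicit false
set_option linter.style.haveILetI false
open Pointwise
open scoped commutatorElement

namespace Cfsg.Agent.Lib.Helper11

universe u

section BG7e

variable {G : Type u} [Group G]

theorem th_normal_step [Finite G] (hG : Cfsg.IsMinSimpleOddOrder G) {A : Subgroup G}
    (hA : Cfsg.TransitivityHypothesis A) {q : ℕ} (hq : q.Prime) (hqA : ¬ q ∣ Nat.card A)
    {B : Subgroup G} (hB : B ≠ ⊤) (hAB : A ≤ B) (hBN : B ≤ Subgroup.normalizer (A : Set G))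
    (hBπ : ∀ r : ℕ, r.Prime → r ∣ Nat.card B → r ∣ Nat.card A)
    (htr : ∀ Q₁ ∈ Cfsg.maxInvSubgroups ⊤ A {q}, ∀ Q₂ ∈ Cfsg.maxInvSubgroups ⊤ A {q},
      ∃ k ∈ Cfsg.piCoreOf (Cfsg.primesNotDvd (Nat.card A)) (Subgroup.centralizer (A : Set G)),
        Q₂ = Q₁.map (MulAut.conj k).toMonoidHom) :
    Cfsg.TransitivityHypothesis B ∧
    Cfsg.primesNotDvd (Nat.card B) = Cfsg.primesNotDvd (Nat.card A) ∧
    Cfsg.piCoreOf (Cfsg.primesNotDvd (Nat.card A)) (Subgroup.centralizer (A : Set G)) ⊓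
        Subgroup.centralizer (B : Set G) =
      Cfsg.piCoreOf (Cfsg.primesNotDvd (Nat.card A)) (Subgroup.centralizer (B : Set G)) ∧
    Cfsg.maxInvSubgroups ⊤ B {q} ⊆ Cfsg.maxInvSubgroups ⊤ A {q} ∧
    (∀ Q₁ ∈ Cfsg.maxInvSubgroups ⊤ B {q}, ∀ Q₂ ∈ Cfsg.maxInvSubgroups ⊤ B {q},
      ∃ k ∈ Cfsg.piCoreOf (Cfsg.primesNotDvd (Nat.card A)) (Subgroup.centralizer (B : Set G)),
        Q₂ = Q₁.map (MulAut.conj k).toMonoidHom) := by
  haveI : Fact q.Prime := ⟨hq⟩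
  obtain ⟨K, hKdef⟩ : ∃ K : Subgroup G,
      K = Cfsg.piCoreOf (Cfsg.primesNotDvd (Nat.card A)) (Subgroup.centralizer (A : Set G)) :=
    ⟨_, rfl⟩
  rw [← hKdef] at htr ⊢
  have hπ : Cfsg.primesNotDvd (Nat.card B) = Cfsg.primesNotDvd (Nat.card A) := by
    ext r
    constructor
    · rintro ⟨hr, hrB⟩; exact ⟨hr, fun h => hrB (h.trans (Subgroup.card_dvd_of_le hAB))⟩
    · rintro ⟨hr, hrA⟩; exact ⟨hr, fun h => hrA (hBπ r hr h)⟩
  have hKC : K ≤ Subgroup.centralizer (A : Set G) := hKdef ▸ piCoreOf_le _ _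
  have hKpi : ∀ p : ℕ, p.Prime → p ∣ Nat.card K → p ∈ Cfsg.primesNotDvd (Nat.card A) :=
    hKdef ▸ piCoreOf_pi _ _
  have hCA : Subgroup.centralizer (A : Set G) ≠ ⊤ := mso_centralizer_sub_ne_top hG hA.1
  haveI : Group.IsSolvable (Subgroup.centralizer (A : Set G)) := mso_solvable hG hCA
  have hKsolv : Group.IsSolvable K := Helper1.isSolvable_of_le hKC
  have hBK : B ≤ Subgroup.normalizer (K : Set G) :=
    hKdef ▸ (hBN.trans (normalizer_le_normalizer_centralizer A)).trans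
      (normalizer_le_normalizer_piCoreOf _ _)
  have hcopBK : (Nat.card B).Coprime (Nat.card K) := by
    apply coprime_of_primesNotDvd; rw [hπ]; exact hKpi
  have hΓN : K ⊔ B ≤ Subgroup.normalizer (A : Set G) :=
    sup_le (hKC.trans (Subgroup.centralizer_le_normalizer _)) hBN
  have hΩ : ∀ Q ∈ Cfsg.maxInvSubgroups ⊤ A {q}, ∀ g ∈ K ⊔ B,
      Q.map (MulAut.conj g).toMonoidHom ∈ Cfsg.maxInvSubgroups ⊤ A {q} :=
    fun Q hQ g hg => maxInv_conj hQ (hΓN hg)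
  have hCBA : Subgroup.centralizer (B : Set G) ≤ Subgroup.centralizer (A : Set G) :=
    Subgroup.centralizer_le hAB
  have h3 : K ⊓ Subgroup.centralizer (B : Set G) =
      Cfsg.piCoreOf (Cfsg.primesNotDvd (Nat.card A)) (Subgroup.centralizer (B : Set G)) := by
    apply le_antisymm
    · apply le_piCoreOf _ inf_le_right
      · apply Helper21.le_normalizer_inf_of_le _ Subgroup.le_normalizer
        exact hKdef ▸ hCBA.trans (le_normalizer_piCoreOf _ _)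
      · intro p hp hd; exact hKpi p hp (hd.trans (Subgroup.card_dvd_of_le inf_le_left))
    · apply le_inf _ (piCoreOf_le _ _)
      have h := th_centralizer_core_le hG hA
        (piCoreOf_pi (Cfsg.primesNotDvd (Nat.card A)) (Subgroup.centralizer (B : Set G)))
      rw [← hKdef] at h
      refine le_trans (le_inf le_rfl ?_) h
      exact (piCoreOf_le _ _).trans hCBA
  have h1 : Cfsg.TransitivityHypothesis B := by
    refine ⟨fun h => hA.1 (le_bot_iff.mp (h ▸ hAB)), hB, ?_⟩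
    intro X hX hBX
    rw [hπ]
    apply le_antisymm
    · apply sSup_le
      rintro Y ⟨hYX, hYpi, hBY⟩
      exact th_le_core hA hX (hAB.trans hBX) hYX hYpi (hAB.trans hBY)
    · exact le_sSup ⟨piCoreOf_le _ _, piCoreOf_pi _ _, hBX.trans (le_normalizer_piCoreOf _ _)⟩
  have h4 : Cfsg.maxInvSubgroups ⊤ B {q} ⊆ Cfsg.maxInvSubgroups ⊤ A {q} := by
    intro Q hQ
    have hQq : IsPGroup q Q := (isPGroup_iff_singleton hq Q).mp hQ.1.2.1
    have hQA : Q ∈ Cfsg.invSubgroups ⊤ A {q} := ⟨le_top, hQ.1.2.1, hAB.trans hQ.1.2.2⟩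
    obtain ⟨Q₁, hQ₁, hQQ₁⟩ := exists_maxInv_ge hQA
    by_cases hQb : Q = ⊥
    · obtain ⟨Q₀, hQ₀, hBQ₀⟩ := glauberman_exists B K hBK hcopBK (Or.inr hKsolv) _ hΩ htr Q₁ hQ₁
      have hQ₀B : Q₀ ∈ Cfsg.invSubgroups ⊤ B {q} := ⟨le_top, hQ₀.1.2.1, hBQ₀⟩
      have := hQ.2 Q₀ hQ₀B (hQb ▸ bot_le)
      rw [← this]; exact hQ₀
    · have hQ₁q : IsPGroup q Q₁ := (isPGroup_iff_singleton hq Q₁).mp hQ₁.1.2.1
      by_contra hcon
      have hlt : Q < Q₁ := lt_of_le_of_ne hQQ₁ (fun h => hcon (h ▸ hQ₁))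
      obtain ⟨x, hxQ₁, hxQ, hxN⟩ := Helper1.exists_mem_normalizer_not_mem hQ₁q hlt
      have hN : Subgroup.normalizer (Q : Set G) ≠ ⊤ :=
        mso_normalizer_ne_top hG hQb (ne_top_of_lt hlt)
      have hBN' : B ≤ Subgroup.normalizer (Q : Set G) := hQ.1.2.2
      obtain ⟨Y, hYdef⟩ : ∃ Y : Subgroup G, Y = Cfsg.piCoreOf (Cfsg.primesNotDvd (Nat.card A))
          (Subgroup.normalizer (Q : Set G)) := ⟨_, rfl⟩
      have hYpi : ∀ p : ℕ, p.Prime → p ∣ Nat.card Y → p ∈ Cfsg.primesNotDvd (Nat.card A) :=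
        hYdef ▸ piCoreOf_pi _ _
      have hYN : Y ≤ Subgroup.normalizer (Q : Set G) := hYdef ▸ piCoreOf_le _ _
      have hBY : B ≤ Subgroup.normalizer (Y : Set G) :=
        hYdef ▸ hBN'.trans (le_normalizer_piCoreOf _ _)
      have hcopBY : (Nat.card B).Coprime (Nat.card Y) := by
        apply coprime_of_primesNotDvd; rw [hπ]; exact hYpi
      haveI : Group.IsSolvable (Subgroup.normalizer (Q : Set G)) := mso_solvable hG hN
      have hYsolv : Group.IsSolvable Y := Helper1.isSolvable_of_le hYN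
      have hAN' : A ≤ Subgroup.normalizer (Q : Set G) := hAB.trans hBN'
      have hQY : Q ≤ Y := hYdef ▸ th_le_core hA hN hAN' Subgroup.le_normalizer
        (pgroup_primesNotDvd hq hqA hQq) hAN'
      have hRq : IsPGroup q ↥(Q₁ ⊓ Subgroup.normalizer (Q : Set G)) := hQ₁q.to_le inf_le_left
      have hRY : Q₁ ⊓ Subgroup.normalizer (Q : Set G) ≤ Y :=
        hYdef ▸ th_le_core hA hN hAN' inf_le_right (pgroup_primesNotDvd hq hqA hRq)
          (Helper21.le_normalizer_inf_of_le hQ₁.1.2.2 (hAN'.trans Subgroup.le_normalizer))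
      obtain ⟨S, hQS, hBS⟩ := Helper1.invariant_pgroup_le_invariant_sylow B Y hBY hcopBY
        (Or.inr hYsolv) q _ Q hQY hQq hBN' le_rfl
      have hSB : (S : Subgroup Y).map Y.subtype ∈ Cfsg.invSubgroups ⊤ B {q} :=
        mem_inv_of_pgroup hq (S.2.map _) hBS
      have hSQ := hQ.2 _ hSB hQS
      have hxR : x ∈ Q₁ ⊓ Subgroup.normalizer (Q : Set G) := Subgroup.mem_inf.mpr ⟨hxQ₁, hxN⟩
      have hxY : x ∈ Y := hRY hxR
      have hmax := S.is_maximal' (Q := (Q₁ ⊓ Subgroup.normalizer (Q : Set G)).subgroupOf Y)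
        (hRq.comap_of_injective Y.subtype Y.subtype_injective) (by
          intro s hs
          rw [Subgroup.mem_subgroupOf]
          have hsQ : (s : G) ∈ Q := by rw [← hSQ]; exact ⟨s, hs, rfl⟩
          exact Subgroup.mem_inf.mpr ⟨hQQ₁ hsQ, Subgroup.le_normalizer hsQ⟩)
      have hxS : (⟨x, hxY⟩ : Y) ∈ (S : Subgroup Y) := by
        rw [← hmax, Subgroup.mem_subgroupOf]; exact hxR
      apply hxQ
      rw [← hSQ]
      exact ⟨⟨x, hxY⟩, hxS, rfl⟩
  refine ⟨h1, hπ, h3, h4, ?_⟩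
  intro Q₁ hQ₁ Q₂ hQ₂
  obtain ⟨k, hk, e⟩ := htr Q₁ (h4 hQ₁) Q₂ (h4 hQ₂)
  obtain ⟨c, hc, e'⟩ := glauberman_trans B K hBK hcopBK (Or.inr hKsolv) Q₁ Q₂ hQ₁.1.2.2
    hQ₂.1.2.2 k hk e
  exact ⟨c, h3 ▸ hc, e'⟩

theorem map_le_normalizer_map_of_normal (P : Subgroup G) (H K : Subgroup ↥P) (h_le : H ≤ K)
    (hN : (H.subgroupOf K).Normal) :
    K.map P.subtype ≤ Subgroup.normalizer ((H.map P.subtype : Subgroup G) : Set G) := by
  have hK : K ≤ Subgroup.normalizer (H : Set ↥P) :=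
    (Subgroup.normal_subgroupOf_iff_le_normalizer h_le).mp hN
  rintro _ ⟨b, hb, rfl⟩
  rw [Subgroup.mem_normalizer_iff]
  intro x
  have hb' := Subgroup.mem_normalizer_iff.mp (hK hb)
  constructor
  · rintro ⟨h, hh, rfl⟩
    exact ⟨b * h * b⁻¹, (hb' h).mp hh, rfl⟩
  · rintro ⟨h', hh', e⟩
    refine ⟨b⁻¹ * h' * b, ?_, ?_⟩
    · apply (hb' (b⁻¹ * h' * b)).mpr
      have : b * (b⁻¹ * h' * b) * b⁻¹ = h' := by group
      rw [this]; exact hh'
    · have e' : P.subtype h' = P.subtype b * x * (P.subtype b)⁻¹ := e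
      rw [map_mul, map_mul, map_inv, e']
      group

theorem th_subnormal [Finite G] (hG : Cfsg.IsMinSimpleOddOrder G) {q : ℕ} (hq : q.Prime)
    {P : Subgroup G} (hP : P ≠ ⊤) (H : Subgroup ↥P) (hH : H.IsSubnormal) :
    ∀ A : Subgroup G, A = H.map P.subtype → Cfsg.TransitivityHypothesis A → ¬ q ∣ Nat.card A →
      (∀ r : ℕ, r.Prime → r ∣ Nat.card P → r ∣ Nat.card A) →
      (∀ Q₁ ∈ Cfsg.maxInvSubgroups ⊤ A {q}, ∀ Q₂ ∈ Cfsg.maxInvSubgroups ⊤ A {q},
        ∃ k ∈ Cfsg.piCoreOf (Cfsg.primesNotDvd (Nat.card A)) (Subgroup.centralizer (A : Set G)),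
          Q₂ = Q₁.map (MulAut.conj k).toMonoidHom) →
      Cfsg.piCoreOf (Cfsg.primesNotDvd (Nat.card A)) (Subgroup.centralizer (A : Set G)) ⊓
          Subgroup.centralizer (P : Set G) =
        Cfsg.piCoreOf (Cfsg.primesNotDvd (Nat.card A)) (Subgroup.centralizer (P : Set G)) ∧
      Cfsg.maxInvSubgroups ⊤ P {q} ⊆ Cfsg.maxInvSubgroups ⊤ A {q} ∧
      (∀ Q₁ ∈ Cfsg.maxInvSubgroups ⊤ P {q}, ∀ Q₂ ∈ Cfsg.maxInvSubgroups ⊤ P {q},
        ∃ k ∈ Cfsg.piCoreOf (Cfsg.primesNotDvd (Nat.card A)) (Subgroup.centralizer (P : Set G)),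
          Q₂ = Q₁.map (MulAut.conj k).toMonoidHom) := by
  induction hH with
  | top =>
    intro A hAe hA hqA hPπ htr
    have hAP : A = P := by
      rw [hAe, ← MonoidHom.range_eq_map, Subgroup.range_subtype]
    subst hAP
    exact ⟨inf_eq_left.mpr (piCoreOf_le _ _), subset_rfl, htr⟩
  | step H K h_le hK hN ih =>
    intro A hAe hA hqA hPπ htr
    obtain ⟨B, hBdef⟩ : ∃ B : Subgroup G, B = K.map P.subtype := ⟨_, rfl⟩
    have hAB : A ≤ B := by rw [hAe, hBdef]; exact Subgroup.map_mono h_le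
    have hBP : B ≤ P := hBdef ▸ Subgroup.map_subtype_le _
    have hB : B ≠ ⊤ := fun h => hP (top_le_iff.mp (h ▸ hBP))
    have hBN : B ≤ Subgroup.normalizer (A : Set G) := by
      rw [hBdef, hAe]
      exact map_le_normalizer_map_of_normal P H K h_le hN
    have hBπ : ∀ r : ℕ, r.Prime → r ∣ Nat.card B → r ∣ Nat.card A :=
      fun r hr h => hPπ r hr (h.trans (Subgroup.card_dvd_of_le hBP))
    obtain ⟨hBth, hπ, h3, h4, h5⟩ := th_normal_step hG hA hq hqA hB hAB hBN hBπ htr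
    have hqB : ¬ q ∣ Nat.card B := fun h => hqA (hBπ q hq h)
    have hPπ' : ∀ r : ℕ, r.Prime → r ∣ Nat.card P → r ∣ Nat.card B :=
      fun r hr h => (hPπ r hr h).trans (Subgroup.card_dvd_of_le hAB)
    have ih' := ih B hBdef hBth hqB hPπ' (by rw [hπ]; exact h5)
    rw [hπ] at ih'
    obtain ⟨i1, i2, i3⟩ := ih'
    refine ⟨?_, i2.trans h4, i3⟩
    rw [← i1, ← h3, inf_assoc, inf_eq_right.mpr (Subgroup.centralizer_le hBP)]

/-- B-G Theorem 7.5. -/
theorem th_75 [Finite G] (hG : Cfsg.IsMinSimpleOddOrder G) {A : Subgroup G}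
    (hA : Cfsg.TransitivityHypothesis A) {q : ℕ} (hq : q.Prime) (hqA : ¬ q ∣ Nat.card A)
    {P : Subgroup G} (hP : P ≠ ⊤) (hPπ : ∀ r : ℕ, r.Prime → r ∣ Nat.card P → r ∣ Nat.card A)
    (hAP : A ≤ P) (hsn : (A.subgroupOf P).IsSubnormal)
    (htr : ∀ Q₁ ∈ Cfsg.maxInvSubgroups ⊤ A {q}, ∀ Q₂ ∈ Cfsg.maxInvSubgroups ⊤ A {q},
      ∃ k ∈ Cfsg.piCoreOf (Cfsg.primesNotDvd (Nat.card A)) (Subgroup.centralizer (A : Set G)),
        Q₂ = Q₁.map (MulAut.conj k).toMonoidHom) :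
    Cfsg.piCoreOf (Cfsg.primesNotDvd (Nat.card A)) (Subgroup.centralizer (A : Set G)) ⊓
        Subgroup.centralizer (P : Set G) =
      Cfsg.piCoreOf (Cfsg.primesNotDvd (Nat.card A)) (Subgroup.centralizer (P : Set G)) ∧
    (∀ Q₁ ∈ Cfsg.maxInvSubgroups ⊤ P {q}, ∀ Q₂ ∈ Cfsg.maxInvSubgroups ⊤ P {q},
      ∃ k ∈ Cfsg.piCoreOf (Cfsg.primesNotDvd (Nat.card A)) (Subgroup.centralizer (P : Set G)),
        Q₂ = Q₁.map (MulAut.conj k).toMonoidHom) ∧
    Cfsg.maxInvSubgroups ⊤ P {q} ⊆ Cfsg.maxInvSubgroups ⊤ A {q} ∧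
    ∀ Q ∈ Cfsg.maxInvSubgroups ⊤ P {q},
      P ⊓ ⁅Subgroup.normalizer (P : Set G), Subgroup.normalizer (P : Set G)⁆ ≤
          ⁅Subgroup.normalizer (Q : Set G), Subgroup.normalizer (Q : Set G)⁆ ∧
        Subgroup.normalizer (P : Set G) =
          Cfsg.piCoreOf (Cfsg.primesNotDvd (Nat.card A)) (Subgroup.centralizer (P : Set G)) ⊔
            (Subgroup.normalizer (P : Set G) ⊓ Subgroup.normalizer (Q : Set G)) := by
  obtain ⟨i1, i2, i3⟩ := th_subnormal hG hq hP (A.subgroupOf P) hsn A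
    (Subgroup.map_subgroupOf_eq_of_le hAP).symm hA hqA hPπ htr
  refine ⟨i1, i3, i2, ?_⟩
  intro Q hQ
  obtain ⟨L, hLdef⟩ : ∃ L : Subgroup G,
      L = Cfsg.piCoreOf (Cfsg.primesNotDvd (Nat.card A)) (Subgroup.centralizer (P : Set G)) :=
    ⟨_, rfl⟩
  rw [← hLdef] at i3 ⊢
  have hLC : L ≤ Subgroup.centralizer (P : Set G) := hLdef ▸ piCoreOf_le _ _
  have hLpi : ∀ p : ℕ, p.Prime → p ∣ Nat.card L → p ∈ Cfsg.primesNotDvd (Nat.card A) :=
    hLdef ▸ piCoreOf_pi _ _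
  have hNL : Subgroup.normalizer (P : Set G) ≤ Subgroup.normalizer (L : Set G) :=
    hLdef ▸ (normalizer_le_normalizer_centralizer P).trans (normalizer_le_normalizer_piCoreOf _ _)
  have hLN : L ≤ Subgroup.normalizer (P : Set G) := hLC.trans (Subgroup.centralizer_le_normalizer _)
  have hfr : Subgroup.normalizer (P : Set G) =
      L ⊔ (Subgroup.normalizer (P : Set G) ⊓ Subgroup.normalizer (Q : Set G)) := by
    apply le_antisymm
    · intro g hg
      obtain ⟨k, hk, e⟩ := i3 Q hQ _ (maxInv_conj hQ hg)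
      have h2 := mem_normalizer_of_map_conj_eq_map_conj e
      have h4 : g = k * (k⁻¹ * g) := by group
      rw [h4]
      exact Subgroup.mul_mem_sup hk (Subgroup.mem_inf.mpr
        ⟨Subgroup.mul_mem _ (Subgroup.inv_mem _ (hLN hk)) hg, h2⟩)
    · exact sup_le hLN inf_le_left
  refine ⟨?_, hfr⟩
  intro x hx
  obtain ⟨hxP, hxc⟩ := Subgroup.mem_inf.mp hx
  have hN₁L : Subgroup.normalizer (P : Set G) ⊓ Subgroup.normalizer (Q : Set G) ≤
      Subgroup.normalizer (L : Set G) := inf_le_left.trans hNL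
  have h1 : x ∈ L ⊔ ⁅Subgroup.normalizer (P : Set G) ⊓ Subgroup.normalizer (Q : Set G),
      Subgroup.normalizer (P : Set G) ⊓ Subgroup.normalizer (Q : Set G)⁆ := by
    apply commutator_sup_le_sup hN₁L
    rw [← hfr]
    exact hxc
  obtain ⟨l, hl, n', hn', e⟩ := mem_sup_of_le_normalizer
    ((Subgroup.commutator_le_self _).trans hN₁L) h1
  have hcomm : Commute l x := by
    have := Subgroup.mem_centralizer_iff.mp (hLC hl) x hxP
    exact this.symm
  have hn'eq : n' = l⁻¹ * x := by rw [e]; group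
  have hpow : x ^ Nat.card L = n' ^ Nat.card L := by
    rw [hn'eq, (hcomm.inv_left).mul_pow, inv_pow]
    have : l ^ Nat.card L = 1 := by
      have := pow_card_eq_one' (G := L) (x := ⟨l, hl⟩)
      exact congrArg Subtype.val this
    rw [this, inv_one, one_mul]
  have hcop : (Nat.card L).Coprime (orderOf x) := by
    have hdvd : orderOf x ∣ Nat.card P := by
      have := orderOf_dvd_natCard (⟨x, hxP⟩ : P)
      rwa [Subgroup.orderOf_mk] at this
    apply Nat.Coprime.coprime_dvd_right hdvd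
    by_contra h
    obtain ⟨r, hr, hrd⟩ := Nat.exists_prime_and_dvd h
    exact (hLpi r hr (hrd.trans (Nat.gcd_dvd_left _ _))).2
      (hPπ r hr (hrd.trans (Nat.gcd_dvd_right _ _)))
  obtain ⟨m, hm⟩ := exists_pow_eq_self_of_coprime hcop
  rw [← hm, hpow]
  apply Subgroup.pow_mem
  apply Subgroup.pow_mem
  exact Subgroup.commutator_mono inf_le_right inf_le_right hn'

end BG7e

end Cfsg.Agent.Lib.Helper11
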