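import Mathlib
import Cfsg.Prelude.Def_Local
import Cfsg.Prelude.Def_Transfer
import Cfsg.Agent.Lib.Helper11.BenderMax
import Cfsg.Agent.Lib.Helper11.ThompsonAB
import Cfsg.Agent.Lib.Helper11.GenFit
import Cfsg.Agent.S1262
import Cfsg.Agent.S0009

set_option autoImplicit false
set_option linter.style.haveILetI false

namespace Cfsg.Agent.Lib.Helper11

open scoped commutatorElement

universe u

section BenderLemma

variable {G : Type u} [Group G]

/-- `F*(A)` inside `G` -/
def fsOf (A : Subgroup G) : Subgroup G := (Cfsg.generalizedFittingSubgroup ↥A).map A.subtype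

theorem fsOf_eq (A : Subgroup G) : fsOf A = layOf A ⊔ fitOf A := Subgroup.map_sup _ _ _

theorem fsOf_le (A : Subgroup G) : fsOf A ≤ A := Subgroup.map_subtype_le _

theorem layOf_comm_fitOf [Finite G] (A : Subgroup G) :
    ∀ e ∈ layOf A, ∀ f ∈ fitOf A, e * f = f * e := by
  rintro _ ⟨e, he, rfl⟩ _ ⟨f, hf, rfl⟩
  have h := layer_comm_fitting (G := ↥A)
  have h2 := Subgroup.commutator_eq_bot_iff_le_centralizer.mp h he
  have h3 := Subgroup.mem_centralizer_iff.mp h2 f hf
  exact congrArg Subtype.val h3.symm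

theorem fitOf_eq_iSup [Finite G] (A : Subgroup G) :
    fitOf A = ⨆ r : Nat.Primes, fq (r : ℕ) A := by
  unfold fitOf fq
  rw [Cfsg.Agent.S0009.result (G := ↥A), Subgroup.map_iSup]

theorem inf_centralizer_fsOf_le [Finite G] (A : Subgroup G) :
    A ⊓ Subgroup.centralizer (fsOf A : Set G) ≤ fsOf A := by
  intro x hx
  obtain ⟨hxA, hxc⟩ := Subgroup.mem_inf.mp hx
  have hxc' : (⟨x, hxA⟩ : A) ∈
      Subgroup.centralizer (Cfsg.generalizedFittingSubgroup ↥A : Set ↥A) := by
    rw [Subgroup.mem_centralizer_iff]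
    intro y hy
    have := Subgroup.mem_centralizer_iff.mp hxc (y : G) ⟨y, hy, rfl⟩
    exact Subtype.ext this
  exact ⟨_, centralizer_genFitting_le hxc', rfl⟩

theorem layOf_normalizer_bl (A : Subgroup G) : A ≤ Subgroup.normalizer (layOf A : Set G) :=
  le_normalizer_map_subtype' _ layer_normal

theorem fsOf_normalizer (A : Subgroup G) : A ≤ Subgroup.normalizer (fsOf A : Set G) :=
  le_normalizer_map_subtype' _ genFitting_normal

theorem fq_le_fitOf [Finite G] (r : ℕ) [Fact r.Prime] (A : Subgroup G) : fq r A ≤ fitOf A :=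
  Subgroup.map_mono (pCore_le_fitting r)

theorem fq'_le_fitOf (r : ℕ) (A : Subgroup G) : fq' r A ≤ fitOf A :=
  Subgroup.map_mono inf_le_left

theorem fq_le_fq' [Finite G] (A : Subgroup G) {p r : ℕ} [Fact p.Prime] [Fact r.Prime]
    (hrp : r ≠ p) : fq r A ≤ fq' p A := by
  apply Subgroup.map_mono
  refine le_inf (pCore_le_fitting r) ?_
  have hn : (Cfsg.pCore r ↥A).Normal := Subgroup.sSup_normal _ (fun _ h => h.1)
  refine le_pPrimeCore_of_normal p hn ?_
  obtain ⟨k, hk⟩ := IsPGroup.iff_card.mp (pCore_isPGroup (G := ↥A) r)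
  rw [hk]
  exact Nat.Coprime.pow_left k ((Nat.coprime_primes Fact.out Fact.out).mpr hrp)

theorem fq_inf_fq' [Finite G] (p : ℕ) [Fact p.Prime] (A : Subgroup G) :
    fq p A ⊓ fq' p A = ⊥ := by
  apply (Subgroup.disjoint_of_coprime_natCard ?_).eq_bot
  obtain ⟨k, hk⟩ := IsPGroup.iff_card.mp (fq_isPGroup p A)
  rw [hk]
  exact (Nat.Coprime.pow_right k (fq'_coprime p A)).symm

/-- every element of `F*(A)` is `e * f` with `e ∈ E(A)`, `f ∈ F(A)` -/
theorem fsOf_decomp (A : Subgroup G) {x : G} (hx : x ∈ fsOf A) :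
    ∃ e ∈ layOf A, ∃ f ∈ fitOf A, x = e * f := by
  rw [fsOf_eq] at hx
  exact mem_sup_of_le_normalizer ((fitOf_le A).trans (layOf_normalizer_bl A)) hx

theorem fitOf_decomp [Finite G] (q : ℕ) [Fact q.Prime] (A : Subgroup G) {x : G}
    (hx : x ∈ fitOf A) : ∃ a ∈ fq q A, ∃ b ∈ fq' q A, x = a * b := by
  have hx' : x ∈ fq q A ⊔ fq' q A := by rw [fq_sup]; exact hx
  exact mem_sup_of_le_normalizer ((fq'_le q A).trans (fq_normalizer q A)) hx'

theorem exists_pow_pow_eq_left {a b : G} (hab : Commute a b) (N : ℕ) (hb : b ^ N = 1)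
    (hN : N.Coprime (orderOf a)) : ∃ m : ℕ, ((a * b) ^ N) ^ m = a := by
  obtain ⟨m, hm⟩ := exists_pow_eq_self_of_coprime hN
  exact ⟨m, by rw [hab.mul_pow, hb, mul_one, hm]⟩

theorem le_normalizer_inf_bl {S H K : Subgroup G} (hH : S ≤ Subgroup.normalizer (H : Set G))
    (hK : S ≤ Subgroup.normalizer (K : Set G)) :
    S ≤ Subgroup.normalizer ((H ⊓ K : Subgroup G) : Set G) := by
  intro s hs
  rw [Subgroup.mem_normalizer_iff]
  intro x
  rw [Subgroup.mem_inf, Subgroup.mem_inf, ← Subgroup.mem_normalizer_iff.mp (hH hs) x,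
    ← Subgroup.mem_normalizer_iff.mp (hK hs) x]

theorem normalizer_le_normalizer_centralizer_bl (Z : Subgroup G) :
    Subgroup.normalizer (Z : Set G) ≤
      Subgroup.normalizer ((Subgroup.centralizer (Z : Set G) : Subgroup G) : Set G) := by
  apply le_normalizer_of_map_conj_le
  rintro g hg _ ⟨x, hx, rfl⟩
  exact conj_mem_centralizer_of_mem_normalizer hg hx

/-- `E(A) ≤ S` for a subnormal subgroup `S` of `F*(A)` containing its centralizer in `F*(A)`. -/
theorem layOf_le_of_subnormal_centralizer [Finite G] (A S : Subgroup G) (hSF : S ≤ fsOf A)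
    (hSsn : (S.subgroupOf (fsOf A)).IsSubnormal)
    (hSC : fsOf A ⊓ Subgroup.centralizer (S : Set G) ≤ S) : layOf A ≤ S := by
  have hSA : S ≤ A := hSF.trans (fsOf_le A)
  have hsn : (S.subgroupOf A).IsSubnormal :=
    subnormal_extend S (fsOf A) A hSF (fsOf_le A) (fsOf_normalizer A) hSsn
  show (Cfsg.layer ↥A).map A.subtype ≤ S
  rw [Subgroup.map_le_iff_le_comap]
  apply sSup_le
  intro K' hK'
  rw [← Subgroup.map_le_iff_le_comap]
  rcases component_le_or_comm hK' hsn with h | h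
  · rintro _ ⟨k, hk, rfl⟩
    exact Subgroup.mem_subgroupOf.mp (h hk)
  · rintro _ ⟨k, hk, rfl⟩
    apply hSC
    refine Subgroup.mem_inf.mpr ⟨⟨k, ?_, rfl⟩, ?_⟩
    · exact ((le_sSup hK').trans le_sup_left : K' ≤ Cfsg.generalizedFittingSubgroup ↥A) hk
    · rw [Subgroup.mem_centralizer_iff]
      intro s hs
      have h2 := Subgroup.commutator_eq_bot_iff_le_centralizer.mp h hk
      have h3 := Subgroup.mem_centralizer_iff.mp h2 ⟨s, hSA hs⟩ (Subgroup.mem_subgroupOf.mpr hs)
      exact congrArg Subtype.val h3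

/-- A solvable subgroup of `A` normalized by `E(A)` is centralized by `E(A)`. -/
theorem layOf_le_centralizer_of_solvable [Finite G] (A X : Subgroup G) (hXA : X ≤ A)
    (hsolv : Group.IsSolvable ↥X) (hn : layOf A ≤ Subgroup.normalizer (X : Set G)) :
    layOf A ≤ Subgroup.centralizer (X : Set G) := by
  show (Cfsg.layer ↥A).map A.subtype ≤ _
  rw [Subgroup.map_le_iff_le_comap]
  apply sSup_le
  intro K' hK'
  have hsol' : Group.IsSolvable (X.subgroupOf A) :=
    Group.isSolvable_of_isSolvable_injective (f := (Subgroup.subgroupOfEquivOfLe hXA).toMonoidHom)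
      (Subgroup.subgroupOfEquivOfLe hXA).injective
  have hinv : K' ≤ Subgroup.normalizer ((X.subgroupOf A : Subgroup ↥A) : Set ↥A) := by
    intro k hk
    have hkn : (k : G) ∈ Subgroup.normalizer (X : Set G) := hn ⟨k, le_sSup hK' hk, rfl⟩
    rw [Subgroup.mem_normalizer_iff]
    intro x
    rw [Subgroup.mem_subgroupOf, Subgroup.mem_subgroupOf]
    exact Subgroup.mem_normalizer_iff.mp hkn (x : G)
  have h := Cfsg.Agent.S1262.result K' (X.subgroupOf A) hK' hsol' hinv
  intro k hk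
  rw [Subgroup.mem_comap, Subgroup.mem_centralizer_iff]
  intro x hx
  have h2 := Subgroup.commutator_eq_bot_iff_le_centralizer.mp h hk
  have h3 := Subgroup.mem_centralizer_iff.mp h2 ⟨x, hXA hx⟩ (Subgroup.mem_subgroupOf.mpr hx)
  exact congrArg Subtype.val h3

/-- A `q`-subgroup `X` of `A` normalized by `S` centralizes `O_r(A)` for every prime `r ≠ q`. -/
theorem fq_le_centralizer_of_normalized [Finite G] (A S X : Subgroup G) (hSF : S ≤ fsOf A)
    (hES : layOf A ≤ S) (hSC : fsOf A ⊓ Subgroup.centralizer (S : Set G) ≤ S)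
    (hXA : X ≤ A) (q : ℕ) [Fact q.Prime] (hXq : IsPGroup q X)
    (hSX : S ≤ Subgroup.normalizer (X : Set G)) (r : ℕ) [Fact r.Prime] (hrq : r ≠ q) :
    fq r A ≤ Subgroup.centralizer (X : Set G) := by
  have hR : IsPGroup r (fq r A) := fq_isPGroup r A
  have hRn := fq_normalizer r A
  have hdisj : X ⊓ fq r A = ⊥ := by
    apply (Subgroup.disjoint_of_coprime_natCard ?_).eq_bot
    obtain ⟨k, hk⟩ := IsPGroup.iff_card.mp hXq
    obtain ⟨l, hl⟩ := IsPGroup.iff_card.mp hR
    rw [hk, hl]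
    exact Nat.Coprime.pow _ _ ((Nat.coprime_primes Fact.out Fact.out).mpr (Ne.symm hrq))
  have hi : ∀ x ∈ X, ∀ s ∈ S ⊓ fq r A, x * s = s * x := by
    intro x hx s hs
    obtain ⟨hsS, hsR⟩ := Subgroup.mem_inf.mp hs
    have h1 : x * s * x⁻¹ * s⁻¹ ∈ X ⊓ fq r A := by
      rw [Subgroup.mem_inf]
      constructor
      · have : x * s * x⁻¹ * s⁻¹ = x * (s * x⁻¹ * s⁻¹) := by group
        rw [this]
        exact X.mul_mem hx ((Subgroup.mem_normalizer_iff.mp (hSX hsS) _).mp (X.inv_mem hx))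
      · exact (fq r A).mul_mem ((Subgroup.mem_normalizer_iff.mp (hRn (hXA hx)) _).mp hsR)
          ((fq r A).inv_mem hsR)
    rw [hdisj, Subgroup.mem_bot] at h1
    have h2 : x * s * x⁻¹ * s⁻¹ * (s * x) = s * x := by rw [h1, one_mul]
    rw [← h2]; group
  have hii : fq r A ⊓ Subgroup.centralizer ((S ⊓ fq r A : Subgroup G) : Set G) ≤ S ⊓ fq r A := by
    intro x hx
    obtain ⟨hxR, hxc⟩ := Subgroup.mem_inf.mp hx
    refine Subgroup.mem_inf.mpr ⟨?_, hxR⟩
    have hxFit : x ∈ fitOf A := fq_le_fitOf r A hxR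
    apply hSC
    refine Subgroup.mem_inf.mpr ⟨?_, ?_⟩
    · rw [fsOf_eq]; exact Subgroup.mem_sup_right hxFit
    · rw [Subgroup.mem_centralizer_iff]
      intro s hs
      obtain ⟨e, he, f, hf, rfl⟩ := fsOf_decomp A (hSF hs)
      have hfS : f ∈ S := by
        have : f = e⁻¹ * (e * f) := by group
        rw [this]; exact S.mul_mem (S.inv_mem (hES he)) hs
      obtain ⟨f₁, hf₁, f₂, hf₂, rfl⟩ := fitOf_decomp r A hf
      have hcomm12 : Commute f₁ f₂ := fq_comm r A f₁ hf₁ f₂ hf₂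
      have hf₁S : f₁ ∈ S := by
        have hN : (Nat.card (fq' r A)).Coprime (orderOf f₁) := by
          obtain ⟨k, hk⟩ := (IsPGroup.iff_orderOf.mp hR) ⟨f₁, hf₁⟩
          rw [Subgroup.orderOf_mk] at hk
          rw [hk]
          exact Nat.Coprime.pow_right k (fq'_coprime r A)
        have hf₂N : f₂ ^ Nat.card (fq' r A) = 1 := by
          have := pow_card_eq_one' (G := ↥(fq' r A)) (x := ⟨f₂, hf₂⟩)
          exact congrArg Subtype.val this
        obtain ⟨m, hm⟩ := exists_pow_pow_eq_left hcomm12 (Nat.card (fq' r A)) hf₂N hN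
        rw [← hm]; exact S.pow_mem (S.pow_mem hfS _) _
      have h1 : e * x = x * e := layOf_comm_fitOf A e he x hxFit
      have h2 : f₁ * x = x * f₁ :=
        Subgroup.mem_centralizer_iff.mp hxc f₁ (Subgroup.mem_inf.mpr ⟨hf₁S, hf₁⟩)
      have h3 : x * f₂ = f₂ * x := fq_comm r A x hxR f₂ hf₂
      calc e * (f₁ * f₂) * x = e * f₁ * (f₂ * x) := by group
        _ = e * f₁ * (x * f₂) := by rw [h3]
        _ = e * (f₁ * x) * f₂ := by group
        _ = e * (x * f₁) * f₂ := by rw [h2]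
        _ = (e * x) * f₁ * f₂ := by group
        _ = (x * e) * f₁ * f₂ := by rw [h1]
        _ = x * (e * (f₁ * f₂)) := by group
  have hA : ¬ r ∣ Nat.card X := by
    obtain ⟨k, hk⟩ := IsPGroup.iff_card.mp hXq
    rw [hk]
    intro h
    exact hrq ((Nat.prime_dvd_prime_iff_eq Fact.out Fact.out).mp
      (Nat.Prime.dvd_of_dvd_pow Fact.out h))
  have hB : IsPGroup r (S ⊓ fq r A : Subgroup G) := hR.to_le inf_le_right
  have hAB : ⁅X, S ⊓ fq r A⁆ = ⊥ := by
    rw [Subgroup.commutator_eq_bot_iff_le_centralizer]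
    intro x hx
    rw [Subgroup.mem_centralizer_iff]
    intro s hs
    exact (hi x hx s hs).symm
  exact thompson_AxB r X (S ⊓ fq r A) hA hB hAB (Nat.card (fq r A)) (fq r A) hR
    (hXA.trans hRn) (inf_le_right.trans ((fq_le r A).trans hRn))
    (hii.trans (fun s hs => by
      rw [Subgroup.mem_centralizer_iff]; intro x hx; exact hi x hx s hs)) le_rfl

/-- If `O_r(A) ≤ C` for all primes `r ≠ p`, then `O_{p'}(F(A)) ≤ C`. -/
theorem fq'_le_of_fq_le [Finite G] (A C : Subgroup G) (p : ℕ) [Fact p.Prime]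
    (h : ∀ r : ℕ, r.Prime → r ≠ p → fq r A ≤ C) : fq' p A ≤ C := by
  have hle : fitOf A ≤ fq p A ⊔ (C ⊓ fq' p A) := by
    rw [fitOf_eq_iSup]
    apply iSup_le
    intro r
    haveI : Fact (r : ℕ).Prime := ⟨r.2⟩
    by_cases hrp : (r : ℕ) = p
    · rw [hrp]; exact le_sup_left
    · exact le_trans (le_inf (h r r.2 hrp) (fq_le_fq' A hrp)) le_sup_right
  intro b hb
  have hbF : b ∈ fitOf A := fq'_le_fitOf p A hb
  obtain ⟨a, ha, c, hc, rfl⟩ := mem_sup_of_le_normalizer
    ((inf_le_right.trans (fq'_le p A)).trans (fq_normalizer p A)) (hle hbF)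
  obtain ⟨hcC, hcQ⟩ := Subgroup.mem_inf.mp hc
  have ha' : a ∈ fq p A ⊓ fq' p A := by
    refine Subgroup.mem_inf.mpr ⟨ha, ?_⟩
    have : a = (a * c) * c⁻¹ := by group
    rw [this]; exact (fq' p A).mul_mem hb ((fq' p A).inv_mem hcQ)
  rw [fq_inf_fq' p A, Subgroup.mem_bot] at ha'
  rw [ha', one_mul]; exact hcC

/-- the center of `O_r(A)`, inside `G` -/
def zq (r : ℕ) (A : Subgroup G) : Subgroup G :=
  fq r A ⊓ Subgroup.centralizer ((fq r A : Subgroup G) : Set G)

theorem zq_le (r : ℕ) (A : Subgroup G) : zq r A ≤ fq r A := inf_le_left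

theorem zq_ne_bot [Finite G] (r : ℕ) [Fact r.Prime] (A : Subgroup G) (h : fq r A ≠ ⊥) :
    zq r A ≠ ⊥ := by
  haveI : Nontrivial ↥(fq r A) := (Subgroup.nontrivial_iff_ne_bot _).mpr h
  haveI hc := IsPGroup.center_nontrivial (fq_isPGroup r A)
  obtain ⟨z, hz⟩ := exists_ne (1 : Subgroup.center ↥(fq r A))
  intro hbot
  have hmem : ((z : ↥(fq r A)) : G) ∈ zq r A := by
    refine Subgroup.mem_inf.mpr ⟨(z : ↥(fq r A)).2, ?_⟩
    rw [Subgroup.mem_centralizer_iff]
    intro y hy
    have := Subgroup.mem_center_iff.mp z.2 ⟨y, hy⟩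
    exact congrArg Subtype.val this
  rw [hbot, Subgroup.mem_bot] at hmem
  apply hz
  apply Subtype.ext
  apply Subtype.ext
  exact hmem

theorem zq_normalizer (r : ℕ) (A : Subgroup G) :
    A ≤ Subgroup.normalizer ((zq r A : Subgroup G) : Set G) :=
  le_normalizer_inf_bl (fq_normalizer r A)
    ((fq_normalizer r A).trans (normalizer_le_normalizer_centralizer_bl _))

theorem zq_le_centralizer_fsOf [Finite G] (r : ℕ) [Fact r.Prime] (A : Subgroup G) :
    zq r A ≤ Subgroup.centralizer (fsOf A : Set G) := by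
  intro z hz
  obtain ⟨hzR, hzc⟩ := Subgroup.mem_inf.mp hz
  rw [Subgroup.mem_centralizer_iff]
  intro y hy
  obtain ⟨e, he, f, hf, rfl⟩ := fsOf_decomp A hy
  obtain ⟨a, ha, b, hb, rfl⟩ := fitOf_decomp r A hf
  have h1 : e * z = z * e := layOf_comm_fitOf A e he z (fq_le_fitOf r A hzR)
  have h2 : a * z = z * a := Subgroup.mem_centralizer_iff.mp hzc a ha
  have h3 : z * b = b * z := fq_comm r A z hzR b hb
  calc e * (a * b) * z = e * a * (b * z) := by group
    _ = e * a * (z * b) := by rw [h3]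
    _ = e * (a * z) * b := by group
    _ = e * (z * a) * b := by rw [h2]
    _ = (e * z) * a * b := by group
    _ = (z * e) * a * b := by rw [h1]
    _ = z * (e * (a * b)) := by group

theorem zq_le_of_centralizer_le [Finite G] (r : ℕ) [Fact r.Prime] (A S : Subgroup G)
    (hSF : S ≤ fsOf A) (hSC : fsOf A ⊓ Subgroup.centralizer (S : Set G) ≤ S) : zq r A ≤ S := by
  intro z hz
  apply hSC
  refine Subgroup.mem_inf.mpr ⟨?_, ?_⟩
  · rw [fsOf_eq]; exact Subgroup.mem_sup_right (fq_le_fitOf r A (zq_le r A hz))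
  · exact Subgroup.centralizer_le hSF (zq_le_centralizer_fsOf r A hz)

/-- In a nonabelian simple group, the centralizer of a nontrivial abelian subgroup normalized
by a maximal subgroup `A` lies in `A`. -/
theorem centralizer_le_of_coatom [IsSimpleGroup G] (hna : ¬ IsMulCommutative G)
    (A : Subgroup G) (hA : IsCoatom A) (Z : Subgroup G) (hZ : Z ≠ ⊥)
    (hZc : ∀ a ∈ Z, ∀ b ∈ Z, a * b = b * a)
    (hn : A ≤ Subgroup.normalizer (Z : Set G)) : Subgroup.centralizer (Z : Set G) ≤ A := by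
  have h1 : Subgroup.normalizer (Z : Set G) = A := by
    rcases eq_or_lt_of_le hn with h | h
    · exact h.symm
    · exfalso
      have htop : Subgroup.normalizer (Z : Set G) = ⊤ := hA.2 _ h
      have hZn : Z.Normal := Subgroup.normalizer_eq_top_iff.mp htop
      rcases hZn.eq_bot_or_eq_top with h0 | h1
      · exact hZ h0
      · apply hna
        exact ⟨⟨fun a b => hZc a (by rw [h1]; trivial) b (by rw [h1]; trivial)⟩⟩
  rw [← h1]; exact Subgroup.centralizer_le_normalizer _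

theorem centralizer_zq_le [Finite G] [IsSimpleGroup G] (hna : ¬ IsMulCommutative G)
    (A : Subgroup G) (hA : IsCoatom A) (r : ℕ) [Fact r.Prime] (h : fq r A ≠ ⊥) :
    Subgroup.centralizer ((zq r A : Subgroup G) : Set G) ≤ A := by
  apply centralizer_le_of_coatom hna A hA (zq r A) (zq_ne_bot r A h) ?_ (zq_normalizer r A)
  intro a ha b hb
  exact (Subgroup.mem_centralizer_iff.mp (Subgroup.mem_inf.mp hb).2 a (zq_le r A ha))

theorem eq_bot_of_isPGroup_of_le_fitOf [Finite G] (A X : Subgroup G) (q : ℕ) [Fact q.Prime]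
    (hXq : IsPGroup q X) (hX : X ≤ fitOf A)
    (hq : ¬ q ∣ Nat.card (Cfsg.fittingSubgroup ↥A)) : X = ⊥ := by
  have hcard : Nat.card X ∣ Nat.card (fitOf A) := Subgroup.card_dvd_of_le hX
  have hcardF : Nat.card (fitOf A) = Nat.card (Cfsg.fittingSubgroup ↥A) :=
    Subgroup.card_map_of_injective A.subtype_injective
  obtain ⟨k, hk⟩ := IsPGroup.iff_card.mp hXq
  rw [hk, hcardF] at hcard
  have hk0 : k = 0 := by
    by_contra hk0
    exact hq ((dvd_pow_self q hk0).trans hcard)
  rw [hk0, pow_zero] at hk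
  exact Subgroup.card_eq_one.mp hk

theorem layOf_inf_centralizer_le_fitOf [Finite G] (A : Subgroup G) :
    layOf A ⊓ Subgroup.centralizer (layOf A : Set G) ≤ fitOf A := by
  intro x hx
  obtain ⟨hxE, hxc⟩ := Subgroup.mem_inf.mp hx
  obtain ⟨e, he, rfl⟩ := hxE
  refine ⟨e, layer_inf_centralizer_le_fitting (Subgroup.mem_inf.mpr ⟨he, ?_⟩), rfl⟩
  rw [Subgroup.mem_centralizer_iff]
  intro y hy
  have := Subgroup.mem_centralizer_iff.mp hxc (y : G) ⟨y, hy, rfl⟩
  exact Subtype.ext this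

/-- Part (a) of Bender's lemma: a `q`-subgroup of `A` normalized by `S` is trivial when
`q ∤ |F(A)|`. -/
theorem bender_a [Finite G] (A S X : Subgroup G) (hSF : S ≤ fsOf A)
    (hES : layOf A ≤ S) (hSC : fsOf A ⊓ Subgroup.centralizer (S : Set G) ≤ S)
    (hXA : X ≤ A) (q : ℕ) [Fact q.Prime] (hXq : IsPGroup q X)
    (hSX : S ≤ Subgroup.normalizer (X : Set G))
    (hq : ¬ q ∣ Nat.card (Cfsg.fittingSubgroup ↥A)) : X = ⊥ := by
  have hsolv : Group.IsSolvable ↥X := by
    haveI := hXq.isNilpotent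
    infer_instance
  have hE : layOf A ≤ Subgroup.centralizer (X : Set G) :=
    layOf_le_centralizer_of_solvable A X hXA hsolv (hES.trans hSX)
  have hfq : fq q A = ⊥ :=
    eq_bot_of_isPGroup_of_le_fitOf A (fq q A) q (fq_isPGroup q A) (fq_le_fitOf q A) hq
  have hF : fitOf A ≤ Subgroup.centralizer (X : Set G) := by
    rw [fitOf_eq_iSup]
    apply iSup_le
    intro r
    haveI : Fact (r : ℕ).Prime := ⟨r.2⟩
    by_cases hrq : (r : ℕ) = q
    · rw [hrq, hfq]; exact bot_le
    · exact fq_le_centralizer_of_normalized A S X hSF hES hSC hXA q hXq hSX r hrq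
  have hXFs : X ≤ fsOf A := by
    intro x hx
    apply inf_centralizer_fsOf_le A
    refine Subgroup.mem_inf.mpr ⟨hXA hx, ?_⟩
    rw [Subgroup.mem_centralizer_iff]
    intro y hy
    rw [fsOf_eq] at hy
    have : y ∈ Subgroup.centralizer (X : Set G) := (sup_le hE hF) hy
    exact (Subgroup.mem_centralizer_iff.mp this x hx).symm
  have hXFit : X ≤ fitOf A := by
    intro x hx
    obtain ⟨e, he, f, hf, rfl⟩ := fsOf_decomp A (hXFs hx)
    have he2 : e ∈ fitOf A := by
      apply layOf_inf_centralizer_le_fitOf A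
      refine Subgroup.mem_inf.mpr ⟨he, ?_⟩
      rw [Subgroup.mem_centralizer_iff]
      intro e' he'
      have h1 : e * f * e' = e' * (e * f) := Subgroup.mem_centralizer_iff.mp (hE he') _ hx
      have h2 : e' * f = f * e' := layOf_comm_fitOf A e' he' f hf
      calc e' * e = e' * (e * f) * f⁻¹ := by group
        _ = e * f * e' * f⁻¹ := by rw [h1]
        _ = e * (f * e') * f⁻¹ := by group
        _ = e * (e' * f) * f⁻¹ := by rw [h2]
        _ = e * e' := by group
    exact (fitOf A).mul_mem he2 hf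
  exact eq_bot_of_isPGroup_of_le_fitOf A X q hXq hXFit hq

/-- If `E(A)` normalizes `Y` and every `p'`-element of `E(A)` centralizes `Y`, then `E(A)`
centralizes `Y`. -/
theorem layOf_le_centralizer_of_pprime [Finite G] (A Y : Subgroup G) (p : ℕ) [Fact p.Prime]
    (hn : layOf A ≤ Subgroup.normalizer (Y : Set G))
    (hk : ∀ k ∈ layOf A, (orderOf k).Coprime p → k ∈ Subgroup.centralizer (Y : Set G)) :
    layOf A ≤ Subgroup.centralizer (Y : Set G) := by
  show (Cfsg.layer ↥A).map A.subtype ≤ _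
  rw [Subgroup.map_le_iff_le_comap]
  apply sSup_le
  intro K' hK'
  obtain ⟨φ, hφ⟩ : ∃ φ : ↥K' →* G, φ = A.subtype.comp K'.subtype := ⟨_, rfl⟩
  have hφE : ∀ g : ↥K', φ g ∈ layOf A := by
    intro g
    rw [hφ]
    exact ⟨(g : ↥A), le_sSup hK' g.2, rfl⟩
  obtain ⟨N, hN⟩ : ∃ N : Subgroup ↥K', N = (Subgroup.centralizer (Y : Set G)).comap φ := ⟨_, rfl⟩
  have hNn : N.Normal := by
    constructor
    intro n hn' g
    rw [hN, Subgroup.mem_comap] at hn' ⊢
    rw [map_mul, map_mul, map_inv]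
    exact conj_mem_centralizer_of_mem_normalizer (hn (hφE g)) hn'
  by_cases hNtop : N = ⊤
  · intro k hk'
    have h1 : (⟨k, hk'⟩ : ↥K') ∈ N := by rw [hNtop]; trivial
    rw [hN, Subgroup.mem_comap, hφ] at h1
    exact h1
  · exfalso
    have hNc : N ≤ Subgroup.center ↥K' := qs_normal_le_center hK'.2 N hNn hNtop
    apply qs_not_solvable hK'.2
    have hpg : IsPGroup p (↥K' ⧸ Subgroup.center ↥K') := by
      intro x
      obtain ⟨g, rfl⟩ := QuotientGroup.mk_surjective x
      obtain ⟨a, m, hm, hgo⟩ := Nat.exists_eq_pow_mul_and_not_dvd (orderOf_pos g).ne' p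
        (Fact.out : p.Prime).ne_one
      refine ⟨a, ?_⟩
      rw [← QuotientGroup.mk_pow, QuotientGroup.eq_one_iff]
      apply hNc
      rw [hN, Subgroup.mem_comap]
      apply hk _ (hφE _)
      have h1 : (φ (g ^ p ^ a)) ^ m = 1 := by
        rw [← map_pow, ← pow_mul, ← hgo, pow_orderOf_eq_one, map_one]
      have h2 : orderOf (φ (g ^ p ^ a)) ∣ m := orderOf_dvd_of_pow_eq_one h1
      have h3 : m.Coprime p :=
        (Nat.coprime_comm).mp ((Nat.Prime.coprime_iff_not_dvd Fact.out).mpr hm)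
      exact Nat.Coprime.coprime_dvd_left h2 h3
    haveI : Group.IsSolvable (↥K' ⧸ Subgroup.center ↥K') := by
      haveI := hpg.isNilpotent
      infer_instance
    haveI : Group.IsSolvable ↥(Subgroup.center ↥K') :=
      Group.isSolvable_of_comm (fun a b => Subtype.ext (by
        have := Subgroup.mem_center_iff.mp b.2 (a : ↥K')
        exact this))
    exact Group.isSolvable_of_ker_le_range (Subgroup.center ↥K').subtype
      (QuotientGroup.mk' (Subgroup.center ↥K')) (by simp)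

/-- Part (b) of Bender's lemma: a `p`-subgroup `Y` of `G` normalized by `S` centralizes
`E(A)` and `O_{p'}(F(A))` when `O_p(A) ≠ 1`. -/
theorem bender_b [Finite G] [IsSimpleGroup G] (hna : ¬ IsMulCommutative G) (A : Subgroup G)
    (hA : IsCoatom A) (S : Subgroup G) (hSF : S ≤ fsOf A) (hES : layOf A ≤ S)
    (hSC : fsOf A ⊓ Subgroup.centralizer (S : Set G) ≤ S)
    (Y : Subgroup G) (p : ℕ) [Fact p.Prime] (hYp : IsPGroup p Y)
    (hSY : S ≤ Subgroup.normalizer (Y : Set G)) (hp : fq p A ≠ ⊥) :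
    layOf A ≤ Subgroup.centralizer (Y : Set G) ∧ fq' p A ≤ Subgroup.centralizer (Y : Set G) := by
  have hSA : S ≤ A := hSF.trans (fsOf_le A)
  obtain ⟨Z, hZdef⟩ : ∃ Z : Subgroup G, Z = zq p A := ⟨_, rfl⟩
  have hZFs : Z ≤ Subgroup.centralizer (fsOf A : Set G) := hZdef ▸ zq_le_centralizer_fsOf p A
  have hZS : Z ≤ S := hZdef ▸ zq_le_of_centralizer_le p A S hSF hSC
  have hCZ : Subgroup.centralizer (Z : Set G) ≤ A := hZdef ▸ centralizer_zq_le hna A hA p hp
  have hZp : IsPGroup p Z := hZdef ▸ (fq_isPGroup p A).to_le (zq_le p A)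
  have hAZ : A ≤ Subgroup.normalizer (Z : Set G) := hZdef ▸ zq_normalizer p A
  obtain ⟨Y₀, hY₀⟩ : ∃ Y₀ : Subgroup G, Y₀ = Y ⊓ Subgroup.centralizer (Z : Set G) := ⟨_, rfl⟩
  have hY₀A : Y₀ ≤ A := hY₀ ▸ inf_le_right.trans hCZ
  have hY₀p : IsPGroup p Y₀ := hY₀ ▸ hYp.to_le inf_le_left
  have hSY₀ : S ≤ Subgroup.normalizer (Y₀ : Set G) :=
    hY₀ ▸ le_normalizer_inf_bl hSY
      ((hSA.trans hAZ).trans (normalizer_le_normalizer_centralizer_bl Z))
  have hsolv₀ : Group.IsSolvable ↥Y₀ := by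
    haveI := hY₀p.isNilpotent
    infer_instance
  have hE₀ : layOf A ≤ Subgroup.centralizer (Y₀ : Set G) :=
    layOf_le_centralizer_of_solvable A Y₀ hY₀A hsolv₀ (hES.trans hSY₀)
  have hR₀ : ∀ r : ℕ, r.Prime → r ≠ p → fq r A ≤ Subgroup.centralizer (Y₀ : Set G) := by
    intro r hrp hr
    haveI : Fact r.Prime := ⟨hrp⟩
    exact fq_le_centralizer_of_normalized A S Y₀ hSF hES hSC hY₀A p hY₀p hSY₀ r hr
  have key : ∀ T : Subgroup G, ¬ p ∣ Nat.card T → T ≤ S →
      T ≤ Subgroup.centralizer (Y₀ : Set G) → Y ≤ Subgroup.centralizer (T : Set G) := by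
    intro T hT hTS hTY₀
    have hTZ : ⁅T, Z⁆ = ⊥ := by
      rw [Subgroup.commutator_eq_bot_iff_le_centralizer]
      intro t ht
      rw [Subgroup.mem_centralizer_iff]
      intro z hz
      exact (Subgroup.mem_centralizer_iff.mp (hZFs hz) t (hSF (hTS ht))).symm
    refine thompson_AxB p T Z hT hZp hTZ (Nat.card Y) Y hYp (hTS.trans hSY) (hZS.trans hSY)
      ?_ le_rfl
    rw [← hY₀]
    exact Subgroup.le_centralizer_iff.mp hTY₀
  have hSr : ∀ r : ℕ, r.Prime → r ≠ p →
      Y ≤ Subgroup.centralizer ((S ⊓ fq r A : Subgroup G) : Set G) := by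
    intro r hrp hr
    haveI : Fact r.Prime := ⟨hrp⟩
    apply key _ ?_ inf_le_left (inf_le_right.trans (hR₀ r hrp hr))
    obtain ⟨k, hk⟩ := IsPGroup.iff_card.mp ((fq_isPGroup r A).to_le
      (inf_le_right : S ⊓ fq r A ≤ fq r A))
    rw [hk]
    intro h
    exact hr ((Nat.prime_dvd_prime_iff_eq Fact.out hrp).mp
      (Nat.Prime.dvd_of_dvd_pow Fact.out h)).symm
  have hR : ∀ r : ℕ, r.Prime → r ≠ p → fq r A ≤ Subgroup.centralizer (Y : Set G) := by
    intro r hrp hr
    haveI : Fact r.Prime := ⟨hrp⟩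
    by_cases hbot : fq r A = ⊥
    · rw [hbot]; exact bot_le
    · have hYA : Y ≤ A := by
        have h1 : zq r A ≤ S ⊓ fq r A :=
          le_inf (zq_le_of_centralizer_le r A S hSF hSC) (zq_le r A)
        have h2 : Y ≤ Subgroup.centralizer ((zq r A : Subgroup G) : Set G) :=
          (hSr r hrp hr).trans (Subgroup.centralizer_le h1)
        exact h2.trans (centralizer_zq_le hna A hA r hbot)
      exact fq_le_centralizer_of_normalized A S Y hSF hES hSC hYA p hYp hSY r hr
  have hE : layOf A ≤ Subgroup.centralizer (Y : Set G) := by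
    have hk : ∀ k ∈ layOf A, (orderOf k).Coprime p → k ∈ Subgroup.centralizer (Y : Set G) := by
      intro k hk hko
      have h1 : Y ≤ Subgroup.centralizer ((Subgroup.zpowers k : Subgroup G) : Set G) := by
        apply key (Subgroup.zpowers k)
        · rw [Nat.card_zpowers]
          exact (Nat.Prime.coprime_iff_not_dvd Fact.out).mp (Nat.coprime_comm.mp hko)
        · rw [Subgroup.zpowers_le]; exact hES hk
        · rw [Subgroup.zpowers_le]; exact hE₀ hk
      exact Subgroup.le_centralizer_iff.mp h1 (Subgroup.mem_zpowers k)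
    exact layOf_le_centralizer_of_pprime A Y p (hES.trans hSY) hk
  exact ⟨hE, fq'_le_of_fq_le A _ p hR⟩

theorem fq_ne_bot_of_dvd [Finite G] (A : Subgroup G) (p : ℕ) [hp : Fact p.Prime]
    (h : p ∣ Nat.card (Cfsg.fittingSubgroup ↥A)) : fq p A ≠ ⊥ := by
  intro hb
  have h1 : Cfsg.pCore p ↥A = ⊥ :=
    (Subgroup.map_eq_bot_iff_of_injective _ A.subtype_injective).mp hb
  have h2 : Cfsg.fittingSubgroup ↥A ≤ Cfsg.pPrimeCore p ↥A := by
    rw [← fitting_eq_sup p A, h1, bot_sup_eq]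
    exact inf_le_right
  have h3 : (Nat.card ↥(Cfsg.fittingSubgroup ↥A)).Coprime p :=
    Nat.Coprime.coprime_dvd_left (Subgroup.card_dvd_of_le h2) (pPrimeCore_card_coprime p)
  exact hp.out.one_lt.ne' (h3.symm.eq_one_of_dvd h)

/-- If `Y` is centralized by `E(A)` and `O_{p'}(F(A))`, it is centralized by `O^p(F*(A))`. -/
theorem pResidual_le_centralizer [Finite G] (A Y : Subgroup G) (p : ℕ) [Fact p.Prime]
    (hE : layOf A ≤ Subgroup.centralizer (Y : Set G))
    (hF : fq' p A ≤ Subgroup.centralizer (Y : Set G)) :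
    ∀ y ∈ (Cfsg.pResidual p ↥(Cfsg.generalizedFittingSubgroup ↥A)).map
        (Cfsg.generalizedFittingSubgroup ↥A).subtype,
      A.subtype y ∈ Subgroup.centralizer (Y : Set G) := by
  rintro _ ⟨w, hw, rfl⟩
  have hle : Cfsg.pResidual p ↥(Cfsg.generalizedFittingSubgroup ↥A) ≤
      (Subgroup.centralizer (Y : Set G)).comap
        (A.subtype.comp (Cfsg.generalizedFittingSubgroup ↥A).subtype) := by
    unfold Cfsg.pResidual
    rw [Subgroup.closure_le]
    intro g hg
    have hg' : (orderOf g).Coprime p := hg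
    show ((g : ↥A) : G) ∈ Subgroup.centralizer (Y : Set G)
    have hg0 : ((g : ↥A) : G) ∈ fsOf A := ⟨(g : ↥A), g.2, rfl⟩
    have hord : orderOf ((g : ↥A) : G) = orderOf g := by
      rw [Subgroup.orderOf_coe, Subgroup.orderOf_coe]
    obtain ⟨e, he, f, hf, hgef⟩ := fsOf_decomp A hg0
    obtain ⟨a, ha, b, hb, rfl⟩ := fitOf_decomp p A hf
    have haN : a ^ Nat.card (fq p A) = 1 := by
      have := pow_card_eq_one' (G := ↥(fq p A)) (x := ⟨a, ha⟩)
      exact congrArg Subtype.val this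
    have hNcop : (Nat.card (fq p A)).Coprime (orderOf ((g : ↥A) : G)) := by
      rw [hord]
      obtain ⟨k, hk⟩ := IsPGroup.iff_card.mp (fq_isPGroup p A)
      rw [hk]
      exact Nat.Coprime.pow_left k hg'.symm
    obtain ⟨m, hm⟩ := exists_pow_eq_self_of_coprime hNcop
    rw [← hm]
    apply Subgroup.pow_mem
    rw [hgef]
    have hea : Commute e a := layOf_comm_fitOf A e he a (fq_le_fitOf p A ha)
    have heb : Commute e b := layOf_comm_fitOf A e he b (fq'_le_fitOf p A hb)
    have hab : Commute a b := fq_comm p A a ha b hb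
    rw [(hea.mul_right heb).mul_pow, hab.mul_pow, haN, one_mul]
    exact Subgroup.mul_mem _ (Subgroup.pow_mem _ (hE he) _) (Subgroup.pow_mem _ (hF hb) _)
  exact hle hw

end BenderLemma

end Cfsg.Agent.Lib.Helper11
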