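import Mathlib
import Cfsg.Prelude.Def_Local
import Cfsg.Prelude.Def_CaseTheorems
import Cfsg.Prelude.Def_TwoFusion
import Cfsg.Agent.Lib.Lead.UniqueSubgroup

/-!
Groups of 2-rank at most one: commuting involutions coincide, and a finite 2-group of 2-rank at
most one has at most one involution.
-/

set_option autoImplicit false
set_option linter.style.haveILetI false

namespace Cfsg.Agent.Lib.Helper11

universe u

section ClassInv

variable {T : Type u} [Group T]

/-- In a group of 2-rank at most one, an element of square one commuting with an involution `x`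
is `1` or `x`. -/
theorem eq_one_or_eq_of_prank [Finite T] (hrk : Cfsg.PRankLE 2 1 T) (x y : T)
    (hx : orderOf x = 2) (hy : y ^ 2 = 1) (hxy : Commute x y) : y = 1 ∨ y = x := by
  classical
  have hx2 : x ^ 2 = 1 := by
    have h := pow_orderOf_eq_one x
    rw [hx] at h
    exact h
  obtain ⟨A, hA⟩ : ∃ A : Subgroup T, A = Subgroup.closure ({x, y} : Set T) := ⟨_, rfl⟩
  have hxA : x ∈ A := by
    rw [hA]; exact Subgroup.subset_closure (Set.mem_insert _ _)
  have hyA : y ∈ A := by
    rw [hA]; exact Subgroup.subset_closure (Set.mem_insert_of_mem _ rfl)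
  have hcen : ∀ g ∈ Subgroup.closure ({x, y} : Set T), Commute g x ∧ Commute g y := by
    intro g hg
    induction hg using Subgroup.closure_induction with
    | mem z hz =>
      rcases hz with hz | hz
      · rw [hz]; exact ⟨Commute.refl _, hxy⟩
      · rw [Set.mem_singleton_iff] at hz
        rw [hz]; exact ⟨hxy.symm, Commute.refl _⟩
    | one => exact ⟨Commute.one_left _, Commute.one_left _⟩
    | mul a b _ _ iha ihb => exact ⟨iha.1.mul_left ihb.1, iha.2.mul_left ihb.2⟩
    | inv a _ iha => exact ⟨iha.1.inv_left, iha.2.inv_left⟩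
  have hcomm : ∀ g ∈ Subgroup.closure ({x, y} : Set T),
      ∀ h ∈ Subgroup.closure ({x, y} : Set T), Commute g h := by
    intro g hg h hh
    induction hh using Subgroup.closure_induction with
    | mem z hz =>
      rcases hz with hz | hz
      · rw [hz]; exact (hcen g hg).1
      · rw [Set.mem_singleton_iff] at hz
        rw [hz]; exact (hcen g hg).2
    | one => exact Commute.one_right _
    | mul a b _ _ iha ihb => exact iha.mul_right ihb
    | inv a _ iha => exact iha.inv_right
  have hexp : ∀ g ∈ Subgroup.closure ({x, y} : Set T), g ^ 2 = 1 := by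
    intro g hg
    induction hg using Subgroup.closure_induction with
    | mem z hz =>
      rcases hz with hz | hz
      · rw [hz]; exact hx2
      · rw [Set.mem_singleton_iff] at hz
        rw [hz]; exact hy
    | one => exact one_pow 2
    | mul a b ha hb iha ihb =>
      rw [(hcomm a ha b hb).mul_pow, iha, ihb, one_mul]
    | inv a _ iha => rw [inv_pow, iha, inv_one]
  rw [← hA] at hcomm hexp
  have hAc : IsMulCommutative ↥A := ⟨⟨fun a b => Subtype.ext (hcomm a a.2 b b.2).eq⟩⟩
  have hcard : Nat.card ↥A ≤ 2 ^ 1 := hrk A hAc hexp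
  have hzx : Subgroup.zpowers x ≤ A := by
    rw [Subgroup.zpowers_le]; exact hxA
  have hzc : Nat.card (Subgroup.zpowers x) = 2 := by rw [Nat.card_zpowers, hx]
  have heq : Subgroup.zpowers x = A := by
    apply Subgroup.eq_of_le_of_card_ge hzx
    rw [hzc]
    simpa using hcard
  have hyz : y ∈ Subgroup.zpowers x := by rw [heq]; exact hyA
  obtain ⟨k, hk⟩ := Subgroup.mem_zpowers_iff.mp hyz
  have hk' : x ^ (k % 2) = y := by
    have h := zpow_mod_orderOf x k
    rw [hx] at h
    push_cast at h
    rw [h]; exact hk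
  rcases Int.emod_two_eq_zero_or_one k with h0 | h1
  · left
    rw [h0, zpow_zero] at hk'
    exact hk'.symm
  · right
    rw [h1, zpow_one] at hk'
    exact hk'.symm

/-- `PRankLE` passes to subgroups. -/
theorem prankLE_subgroup {p k : ℕ} (hrk : Cfsg.PRankLE p k T) (M : Subgroup T) :
    Cfsg.PRankLE p k ↥M := by
  intro A hAc hAe
  have h1 := hrk (A.map M.subtype) ?_ ?_
  · rwa [Subgroup.card_map_of_injective M.subtype_injective] at h1
  · refine ⟨⟨?_⟩⟩
    rintro ⟨a, b, hb, rfl⟩ ⟨c, d, hd, rfl⟩
    apply Subtype.ext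
    have hbd : (⟨b, hb⟩ : ↥A) * ⟨d, hd⟩ = ⟨d, hd⟩ * ⟨b, hb⟩ := hAc.is_comm.comm _ _
    have hbd' : b * d = d * b := congrArg Subtype.val hbd
    show M.subtype b * M.subtype d = M.subtype d * M.subtype b
    rw [← map_mul, ← map_mul, hbd']
  · rintro _ ⟨b, hb, rfl⟩
    rw [← map_pow, hAe b hb, map_one]

/-- A finite 2-group of 2-rank at most one has at most one involution. -/
theorem uniqP_of_prank [Finite T] (hT : IsPGroup 2 T) (hrk : Cfsg.PRankLE 2 1 T) :
    Cfsg.Agent.Lib.Lead.UniqP 2 T := by
  classical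
  haveI : Fact (Nat.Prime 2) := ⟨Nat.prime_two⟩
  intro x y hx hy hx1
  have hox : orderOf x = 2 := orderOf_eq_prime hx hx1
  haveI : Nontrivial T := ⟨⟨x, 1, hx1⟩⟩
  haveI : Nontrivial (Subgroup.center T) := hT.center_nontrivial
  have hZp : IsPGroup 2 ↥(Subgroup.center T) := hT.to_subgroup _
  have h2 : 2 ∣ Nat.card ↥(Subgroup.center T) := by
    rcases hZp.card_eq_or_dvd with h | h
    · exfalso
      have hs := (Nat.card_eq_one_iff_unique.mp h).1
      exact not_subsingleton _ hs
    · exact h
  obtain ⟨z, hz⟩ := exists_prime_orderOf_dvd_card' 2 h2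
  have hzc : ∀ g : T, Commute (z : T) g := fun g => (Subgroup.mem_center_iff.mp z.2 g).symm
  have hoz : orderOf (z : T) = 2 := by rw [Subgroup.orderOf_coe]; exact hz
  have h1 := eq_one_or_eq_of_prank hrk (z : T) x hoz hx (hzc x)
  have h2' := eq_one_or_eq_of_prank hrk (z : T) y hoz hy (hzc y)
  rcases h1 with h1 | h1
  · exact absurd h1 hx1
  · rcases h2' with h2' | h2'
    · rw [h2']; exact Subgroup.one_mem _
    · rw [h2', ← h1]; exact Subgroup.mem_zpowers x

end ClassInv

end Cfsg.Agent.Lib.Helper11
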