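import Mathlib
import Cfsg.Prelude.Def_Local
import Cfsg.Agent.Lib.Helper11.PConstrained
import Cfsg.Agent.Lib.Helper11.Components

set_option autoImplicit false

namespace Cfsg.Agent.Lib.Helper11

section HHSolv

universe u

/-- a solvable group has trivial layer -/
theorem layer_eq_bot_of_isSolvable {G : Type u} [Group G] (hs : Group.IsSolvable G) :
    Cfsg.layer G = ⊥ := by
  unfold Cfsg.layer
  rw [sSup_eq_bot]
  intro K hK
  exfalso
  haveI := hs
  exact qs_not_solvable hK.2 inferInstance

/-- a finite solvable group is `p`-constrained -/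
theorem isPConstrained_of_isSolvable {G : Type u} [Group G] [Finite G] (p : ℕ) [Fact p.Prime]
    (hs : Group.IsSolvable G) : Cfsg.IsPConstrained p G := by
  rw [isPConstrained_iff_pLayer_eq_bot, pLayer_eq_bot_iff]
  haveI := hs
  exact layer_eq_bot_of_isSolvable inferInstance

/-- In a finite `p`-constrained group the centre of a Sylow `p`-subgroup lies in `O_{p',p}`. -/
theorem center_sylow_le_pPrimePCore_of_isPConstrained {G : Type u} [Group G] [Finite G] {p : ℕ}
    [Fact p.Prime] (hc : Cfsg.IsPConstrained p G) (S : Sylow p G) :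
    (S : Subgroup G) ⊓ Subgroup.centralizer ((S : Subgroup G) : Set G) ≤ Cfsg.pPrimePCore p G := by
  intro z hz
  obtain ⟨hzS, hzC⟩ := hz
  haveI hn : (Cfsg.pPrimePCore p G).Normal := pPrimePCore_normal p
  obtain ⟨Q⟩ : Nonempty (Sylow p ↥(Cfsg.pPrimePCore p G)) := inferInstance
  have hpg := sylow_map_subtype_isPGroup Q
  obtain ⟨S', hS'⟩ := hpg.exists_le_sylow
  obtain ⟨g, hg⟩ := MulAction.exists_smul_eq G S S'
  have hw : g * z * g⁻¹ ∈ Subgroup.centralizer
      (((Q : Subgroup ↥(Cfsg.pPrimePCore p G)).map (Cfsg.pPrimePCore p G).subtype : Subgroup G) :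
        Set G) := by
    rw [Subgroup.mem_centralizer_iff]
    intro x hx
    have hx' : x ∈ (S' : Subgroup G) := hS' hx
    rw [← hg, Sylow.coe_subgroup_smul, Subgroup.mem_pointwise_smul_iff_inv_smul_mem] at hx'
    have hx2 : g⁻¹ * x * g ∈ (S : Subgroup G) := by
      simpa [MulAut.smul_def] using hx'
    have h3 := Subgroup.mem_centralizer_iff.mp hzC _ hx2
    calc x * (g * z * g⁻¹) = g * ((g⁻¹ * x * g) * z) * g⁻¹ := by group
      _ = g * (z * (g⁻¹ * x * g)) * g⁻¹ := by rw [h3]
      _ = g * z * g⁻¹ * x := by group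
  have h4 := hc Q hw
  have h5 := hn.conj_mem _ h4 g⁻¹
  have h6 : g⁻¹ * (g * z * g⁻¹) * g⁻¹⁻¹ = z := by group
  rwa [h6] at h5

/-- Hall--Higman for solvable groups: the centre of a Sylow `p`-subgroup lies in `O_{p',p}`. -/
theorem center_sylow_le_pPrimePCore {G : Type*} [Group G] [Finite G] {p : ℕ} [Fact p.Prime]
    (hs : Group.IsSolvable G) (S : Sylow p G) :
    (S : Subgroup G) ⊓ Subgroup.centralizer ((S : Subgroup G) : Set G) ≤ Cfsg.pPrimePCore p G :=
  center_sylow_le_pPrimePCore_of_isPConstrained (isPConstrained_of_isSolvable p hs) S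

end HHSolv

end Cfsg.Agent.Lib.Helper11
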