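import Mathlib
import Cfsg.Agent.Lib.Helper11.OmegaOne

set_option autoImplicit false

namespace Cfsg.Agent.Lib.Helper11

section OmegaOneAut

/-- For odd `p`, a `p'`-automorphism of a finite `p`-group acting trivially on the elements of
order dividing `p` is trivial (abstract form, via the semidirect product). -/
theorem omega_one_mulAut {G : Type*} [Group G] [Finite G] {p : ℕ} [Fact p.Prime] (hp : p ≠ 2)
    (hG : IsPGroup p G) (a : MulAut G) (ha : Nat.Coprime (orderOf a) p)
    (h : ∀ x : G, x ^ p = 1 → a x = x) : a = 1 := by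
  let Z : Subgroup (MulAut G) := Subgroup.zpowers a
  let φ : Z →* MulAut G := Z.subtype
  have hfinS : Finite (G ⋊[φ] Z) :=
    Finite.of_equiv (G × Z) (SemidirectProduct.equivProd).symm
  let H : Subgroup (G ⋊[φ] Z) := (SemidirectProduct.inl : G →* G ⋊[φ] Z).range
  let A : Subgroup (G ⋊[φ] Z) := (SemidirectProduct.inr : Z →* G ⋊[φ] Z).range
  have hHn : H.Normal := by
    show ((SemidirectProduct.inl : G →* G ⋊[φ] Z).range).Normal
    rw [SemidirectProduct.range_inl_eq_ker_rightHom]
    infer_instance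
  have hHp : IsPGroup p H := by
    have h1 : IsPGroup p ((⊤ : Subgroup G).map (SemidirectProduct.inl : G →* G ⋊[φ] Z)) :=
      (IsPGroup.to_subgroup hG ⊤).map _
    rw [← MonoidHom.range_eq_map] at h1
    exact h1
  have hAH : A ≤ Subgroup.normalizer (H : Set (G ⋊[φ] Z)) := by
    rw [Subgroup.normalizer_eq_top_iff.mpr hHn]; exact le_top
  have hcardA : Nat.card A = orderOf a := by
    have h1 : Nat.card A = Nat.card Z :=
      (Nat.card_congr (Equiv.ofInjective _ SemidirectProduct.inr_injective)).symm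
    rw [h1, Nat.card_zpowers]
  have hcop : (Nat.card A).Coprime p := by rw [hcardA]; exact ha
  have hfixpow : ∀ b : Z, ∀ g : G, g ^ p = 1 → (b : MulAut G) g = g := by
    rintro ⟨b, hb⟩ g hg
    obtain ⟨k, rfl⟩ := Subgroup.mem_zpowers_iff.mp hb
    show (a ^ k) g = g
    have key : ∀ n : ℕ, (a ^ n) g = g := by
      intro n
      induction n with
      | zero => simp
      | succ n ih => rw [pow_succ, MulAut.mul_apply, h g hg, ih]
    have key' : ∀ n : ℕ, (a ^ n)⁻¹ g = g := by
      intro n
      have := key n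
      rw [MulAut.inv_apply, MulEquiv.symm_apply_eq]
      exact this.symm
    cases k with
    | ofNat n => simpa using key n
    | negSucc n =>
      rw [zpow_negSucc]
      exact key' (n + 1)
  have hfix : ∀ x ∈ H, x ^ p = 1 → A ≤ Subgroup.centralizer ({x} : Set (G ⋊[φ] Z)) := by
    rintro _ ⟨g, rfl⟩ hxp _ ⟨b, rfl⟩
    have hg : g ^ p = 1 := by
      apply SemidirectProduct.inl_injective (φ := φ)
      rw [map_pow, map_one]; exact hxp
    rw [Subgroup.mem_centralizer_iff]
    intro y hy
    rw [Set.mem_singleton_iff.mp hy]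
    have h1 := SemidirectProduct.inl_aut (φ := φ) b g
    have h2 : φ b g = g := hfixpow b g hg
    rw [h2] at h1
    -- h1 : inl g = inr b * inl g * inr b⁻¹
    have h3 : (SemidirectProduct.inl g : G ⋊[φ] Z) * SemidirectProduct.inr b =
        SemidirectProduct.inr b * SemidirectProduct.inl g := by
      conv_lhs => rw [h1]
      rw [map_inv, inv_mul_cancel_right]
    exact h3
  have hcent := omega_one p hp H A hHp hAH hcop hfix
  ext g
  have ha' : (SemidirectProduct.inr (⟨a, Subgroup.mem_zpowers a⟩ : Z) : G ⋊[φ] Z) ∈ A :=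
    ⟨_, rfl⟩
  have hg' : (SemidirectProduct.inl g : G ⋊[φ] Z) ∈ H := ⟨g, rfl⟩
  have h1 := Subgroup.mem_centralizer_iff.mp (hcent ha') _ hg'
  have h2 := SemidirectProduct.inl_aut (φ := φ) (⟨a, Subgroup.mem_zpowers a⟩ : Z) g
  rw [← h1, map_inv, mul_inv_cancel_right] at h2
  have h3 : (φ ⟨a, Subgroup.mem_zpowers a⟩) g = g := SemidirectProduct.inl_injective h2
  exact h3

end OmegaOneAut

end Cfsg.Agent.Lib.Helper11
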