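import Mathlib
import Cfsg.Prelude
import Cfsg.Agent.Lib.Helper11.GLInvol
import Cfsg.Agent.Lib.Helper11.AltStd

set_option autoImplicit false

namespace Cfsg.Agent.Lib.Helper11

open scoped commutatorElement

section slstd

variable {F : Type*} [Field F] {m : ℕ}

/-- The block matrix `diag(A, 1)` (the `1` in the last position). -/
def blkL (A : Matrix (Fin m) (Fin m) F) : Matrix (Fin (m + 1)) (Fin (m + 1)) F :=
  Matrix.of fun i j =>
    Fin.lastCases (Fin.lastCases 1 (fun _ => 0) j)
      (fun i' => Fin.lastCases 0 (fun j' => A i' j') j) i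

@[simp] theorem blkL_last_last (A : Matrix (Fin m) (Fin m) F) :
    blkL A (Fin.last m) (Fin.last m) = 1 := by simp [blkL]
@[simp] theorem blkL_last_castSucc (A : Matrix (Fin m) (Fin m) F) (j : Fin m) :
    blkL A (Fin.last m) j.castSucc = 0 := by simp [blkL]
@[simp] theorem blkL_castSucc_last (A : Matrix (Fin m) (Fin m) F) (i : Fin m) :
    blkL A i.castSucc (Fin.last m) = 0 := by simp [blkL]
@[simp] theorem blkL_castSucc_castSucc (A : Matrix (Fin m) (Fin m) F) (i j : Fin m) :
    blkL A i.castSucc j.castSucc = A i j := by simp [blkL]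

theorem blkL_mul (A B : Matrix (Fin m) (Fin m) F) : blkL (A * B) = blkL A * blkL B := by
  ext i j
  refine Fin.lastCases ?_ (fun i' => ?_) i <;> refine Fin.lastCases ?_ (fun j' => ?_) j <;>
    simp [Matrix.mul_apply, Fin.sum_univ_castSucc]

theorem blkL_one : blkL (1 : Matrix (Fin m) (Fin m) F) = 1 := by
  ext i j
  refine Fin.lastCases ?_ (fun i' => ?_) i <;> refine Fin.lastCases ?_ (fun j' => ?_) j <;>
    simp [Matrix.one_apply, (Fin.castSucc_lt_last _).ne, (Fin.castSucc_lt_last _).ne']

theorem det_of_last_row_zero (M : Matrix (Fin (m + 1)) (Fin (m + 1)) F)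
    (h : ∀ j : Fin m, M (Fin.last m) j.castSucc = 0) :
    M.det = M (Fin.last m) (Fin.last m) * (M.submatrix Fin.castSucc Fin.castSucc).det := by
  rw [Matrix.det_succ_row _ (Fin.last m), Fin.sum_univ_castSucc]
  simp [h, ← two_mul]

theorem det_blkL (A : Matrix (Fin m) (Fin m) F) : (blkL A).det = A.det := by
  rw [det_of_last_row_zero _ (fun j => blkL_last_castSucc A j)]
  have : (blkL A).submatrix Fin.castSucc Fin.castSucc = A := by ext i j; simp
  rw [this]; simp

/-- The diagonal matrix `diag(-1, …, -1, 1)`. -/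
def tMatL (F : Type*) [Field F] (m : ℕ) : Matrix (Fin (m + 1)) (Fin (m + 1)) F :=
  Matrix.diagonal (fun i : Fin (m + 1) => if (i : ℕ) + 1 = m + 1 then (1 : F) else -1)

theorem tMatL_last :
    (if ((Fin.last m : Fin (m + 1)) : ℕ) + 1 = m + 1 then (1 : F) else -1) = 1 := by simp

theorem tMatL_castSucc (i : Fin m) :
    (if ((i.castSucc : Fin (m + 1)) : ℕ) + 1 = m + 1 then (1 : F) else -1) = -1 := by
  have : (i : ℕ) ≠ m := i.isLt.ne
  simp [this]

theorem castSucc_last_of_commL (h2 : (2 : F) ≠ 0) (M : Matrix (Fin (m + 1)) (Fin (m + 1)) F)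
    (hM : M * tMatL F m = tMatL F m * M) (i : Fin m) : M i.castSucc (Fin.last m) = 0 := by
  have h := congrFun (congrFun hM i.castSucc) (Fin.last m)
  rw [tMatL, Matrix.mul_diagonal, Matrix.diagonal_mul, tMatL_last, tMatL_castSucc] at h
  have : (2 : F) * M i.castSucc (Fin.last m) = 0 := by linear_combination h
  exact (mul_eq_zero.mp this).resolve_left h2

theorem last_castSucc_of_commL (h2 : (2 : F) ≠ 0) (M : Matrix (Fin (m + 1)) (Fin (m + 1)) F)
    (hM : M * tMatL F m = tMatL F m * M) (j : Fin m) : M (Fin.last m) j.castSucc = 0 := by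
  have h := congrFun (congrFun hM (Fin.last m)) j.castSucc
  rw [tMatL, Matrix.mul_diagonal, Matrix.diagonal_mul, tMatL_last, tMatL_castSucc] at h
  have : (2 : F) * M (Fin.last m) j.castSucc = 0 := by linear_combination -h
  exact (mul_eq_zero.mp this).resolve_left h2

theorem blkL_comm_tMatL (A : Matrix (Fin m) (Fin m) F) :
    blkL A * tMatL F m = tMatL F m * blkL A := by
  ext i j
  rw [tMatL, Matrix.mul_diagonal, Matrix.diagonal_mul]
  refine Fin.lastCases ?_ (fun i' => ?_) i <;> refine Fin.lastCases ?_ (fun j' => ?_) j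
  · rw [mul_comm]
  · rw [blkL_last_castSucc]; simp
  · rw [blkL_castSucc_last]; simp
  · rw [tMatL_castSucc, tMatL_castSucc]; ring

/-- The block embedding `SL_m → SL_{m+1}`. -/
def blkSL : Matrix.SpecialLinearGroup (Fin m) F →* Matrix.SpecialLinearGroup (Fin (m + 1)) F where
  toFun A := ⟨blkL (A : Matrix (Fin m) (Fin m) F), by rw [det_blkL]; exact A.2⟩
  map_one' := by
    apply Subtype.ext
    simp only [Matrix.SpecialLinearGroup.coe_one]
    exact blkL_one
  map_mul' := by
    intro A B
    apply Subtype.ext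
    simp only [Matrix.SpecialLinearGroup.coe_mul]
    exact blkL_mul _ _

theorem blkSL_coe (A : Matrix.SpecialLinearGroup (Fin m) F) :
    ((blkSL A : Matrix.SpecialLinearGroup (Fin (m + 1)) F) :
      Matrix (Fin (m + 1)) (Fin (m + 1)) F) = blkL (A : Matrix (Fin m) (Fin m) F) := rfl

theorem blkSL_injective : Function.Injective
    (blkSL : Matrix.SpecialLinearGroup (Fin m) F →* Matrix.SpecialLinearGroup (Fin (m + 1)) F) := by
  intro A B h
  apply Subtype.ext
  ext i j
  have h1 := congrArg (fun u : Matrix.SpecialLinearGroup (Fin (m + 1)) F =>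
    (u : Matrix (Fin (m + 1)) (Fin (m + 1)) F) i.castSucc j.castSucc) h
  simpa [blkSL_coe] using h1

theorem mem_centralizer_tL {t : Matrix.SpecialLinearGroup (Fin (m + 1)) F}
    (ht : (t : Matrix (Fin (m + 1)) (Fin (m + 1)) F) = tMatL F m)
    {g : Matrix.SpecialLinearGroup (Fin (m + 1)) F} :
    g ∈ Subgroup.centralizer ({t} : Set (Matrix.SpecialLinearGroup (Fin (m + 1)) F)) ↔
      (g : Matrix (Fin (m + 1)) (Fin (m + 1)) F) * tMatL F m = tMatL F m * g := by
  rw [Subgroup.mem_centralizer_iff]
  constructor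
  · intro h
    have h1 := h t rfl
    have h2 := congrArg (fun u : Matrix.SpecialLinearGroup (Fin (m + 1)) F =>
      (u : Matrix (Fin (m + 1)) (Fin (m + 1)) F)) h1
    simp only [Matrix.SpecialLinearGroup.coe_mul, ht] at h2
    exact h2.symm
  · intro h k hk
    rw [Set.mem_singleton_iff] at hk
    subst hk
    apply Subtype.ext
    simp only [Matrix.SpecialLinearGroup.coe_mul, ht]
    exact h.symm

/-- The block embedding into the centralizer of `t`. -/
def blkCL (t : Matrix.SpecialLinearGroup (Fin (m + 1)) F)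
    (ht : (t : Matrix (Fin (m + 1)) (Fin (m + 1)) F) = tMatL F m) :
    Matrix.SpecialLinearGroup (Fin m) F →*
      ↥(Subgroup.centralizer ({t} : Set (Matrix.SpecialLinearGroup (Fin (m + 1)) F))) :=
  blkSL.codRestrict _ (fun A => (mem_centralizer_tL ht).mpr (by
    rw [blkSL_coe]; exact blkL_comm_tMatL _))

/-- The last diagonal entry is multiplicative on the centralizer of `t`. -/
def entryHomL (h2 : (2 : F) ≠ 0) (t : Matrix.SpecialLinearGroup (Fin (m + 1)) F)
    (ht : (t : Matrix (Fin (m + 1)) (Fin (m + 1)) F) = tMatL F m) :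
    ↥(Subgroup.centralizer ({t} : Set (Matrix.SpecialLinearGroup (Fin (m + 1)) F))) →* F where
  toFun g := ((g : Matrix.SpecialLinearGroup (Fin (m + 1)) F) :
    Matrix (Fin (m + 1)) (Fin (m + 1)) F) (Fin.last m) (Fin.last m)
  map_one' := by simp
  map_mul' := by
    intro g h
    simp only [Subgroup.coe_mul, Matrix.SpecialLinearGroup.coe_mul, Matrix.mul_apply,
      Fin.sum_univ_castSucc]
    rw [Finset.sum_eq_zero, zero_add]
    intro k _
    rw [last_castSucc_of_commL h2 _ ((mem_centralizer_tL ht).mp g.2) k, zero_mul]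

theorem range_blkCL (h2 : (2 : F) ≠ 0) (t : Matrix.SpecialLinearGroup (Fin (m + 1)) F)
    (ht : (t : Matrix (Fin (m + 1)) (Fin (m + 1)) F) = tMatL F m) :
    (blkCL t ht).range = (entryHomL h2 t ht).ker := by
  ext g
  rw [MonoidHom.mem_range, MonoidHom.mem_ker]
  constructor
  · rintro ⟨A, rfl⟩
    show blkL (A : Matrix (Fin m) (Fin m) F) (Fin.last m) (Fin.last m) = 1
    exact blkL_last_last _
  · intro h1
    have hcomm := (mem_centralizer_tL ht).mp g.2
    have hrow := last_castSucc_of_commL h2 _ hcomm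
    have hcol := castSucc_last_of_commL h2 _ hcomm
    have h00 : ((g : Matrix.SpecialLinearGroup (Fin (m + 1)) F) :
        Matrix (Fin (m + 1)) (Fin (m + 1)) F) (Fin.last m) (Fin.last m) = 1 := h1
    have hdet : (((g : Matrix.SpecialLinearGroup (Fin (m + 1)) F) :
        Matrix (Fin (m + 1)) (Fin (m + 1)) F)).det = 1 :=
      (g : Matrix.SpecialLinearGroup (Fin (m + 1)) F).2
    have hsub : ((((g : Matrix.SpecialLinearGroup (Fin (m + 1)) F) :
        Matrix (Fin (m + 1)) (Fin (m + 1)) F)).submatrix Fin.castSucc Fin.castSucc).det = 1 := by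
      rw [det_of_last_row_zero _ hrow, h00, one_mul] at hdet
      exact hdet
    refine ⟨⟨_, hsub⟩, ?_⟩
    apply Subtype.ext
    apply Subtype.ext
    ext i j
    show blkL _ i j = ((g : Matrix.SpecialLinearGroup (Fin (m + 1)) F) :
        Matrix (Fin (m + 1)) (Fin (m + 1)) F) i j
    refine Fin.lastCases ?_ (fun i' => ?_) i <;> refine Fin.lastCases ?_ (fun j' => ?_) j
    · simp [h00]
    · simp [hrow]
    · simp [hcol]
    · simp

theorem layer_centralizer_tL [Fintype F] (hF : Odd (Fintype.card F)) (hm : 2 ≤ m)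
    (h33 : ¬ (m = 2 ∧ Fintype.card F = 3)) (t : Matrix.SpecialLinearGroup (Fin (m + 1)) F)
    (ht : (t : Matrix (Fin (m + 1)) (Fin (m + 1)) F) = tMatL F m) :
    Cfsg.layer ↥(Subgroup.centralizer ({t} : Set (Matrix.SpecialLinearGroup (Fin (m + 1)) F))) =
      (blkCL t ht).range := by
  have h2 := two_ne_zero_of_odd_card hF
  apply le_antisymm
  · apply sSup_le
    intro K hK
    rw [range_blkCL h2]
    have hperf : commutator ↥K = ⊤ := hK.2.1.commutator_eq_top
    intro x hx
    rw [MonoidHom.mem_ker]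
    let ψ : ↥K →* F := (entryHomL h2 t ht).comp K.subtype
    have hle : (⊤ : Subgroup ↥K) ≤ ψ.ker := by
      rw [← hperf, commutator_def, Subgroup.commutator_le]
      intro a _ b _
      rw [MonoidHom.mem_ker, commutatorElement_def, map_mul, map_mul, map_mul]
      calc ψ a * ψ b * ψ a⁻¹ * ψ b⁻¹ = (ψ a * ψ a⁻¹) * (ψ b * ψ b⁻¹) := by ring
        _ = 1 := by
          rw [← map_mul, ← map_mul, mul_inv_cancel, mul_inv_cancel, map_one, one_mul]
    have := hle (Subgroup.mem_top (⟨x, hx⟩ : ↥K))
    exact MonoidHom.mem_ker.mp this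
  · apply le_sSup
    refine ⟨?_, ?_⟩
    · have : (blkCL t ht).range.Normal := by rw [range_blkCL h2]; infer_instance
      exact this.isSubnormal
    · have hinj : Function.Injective (blkCL t ht) := by
        intro A B h
        apply blkSL_injective
        exact congrArg Subtype.val h
      exact qs_of_mulEquiv (MonoidHom.ofInjective hinj) (sl_quasisimple hF m hm h33)

theorem layer_map_eq_range_blkSL [Fintype F] (hF : Odd (Fintype.card F)) (hm : 2 ≤ m)
    (h33 : ¬ (m = 2 ∧ Fintype.card F = 3)) (t : Matrix.SpecialLinearGroup (Fin (m + 1)) F)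
    (ht : (t : Matrix (Fin (m + 1)) (Fin (m + 1)) F) = tMatL F m) :
    (Cfsg.layer ↥(Subgroup.centralizer
        ({t} : Set (Matrix.SpecialLinearGroup (Fin (m + 1)) F)))).map
      (Subgroup.centralizer ({t} : Set (Matrix.SpecialLinearGroup (Fin (m + 1)) F))).subtype =
      (blkSL : Matrix.SpecialLinearGroup (Fin m) F →*
        Matrix.SpecialLinearGroup (Fin (m + 1)) F).range := by
  rw [layer_centralizer_tL hF hm h33 t ht, MonoidHom.map_range]
  rfl

/-- The block scalar matrix `diag(c, …, c, a)`. -/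
def bsMat (c a : F) : Matrix (Fin (m + 1)) (Fin (m + 1)) F :=
  Matrix.diagonal (Fin.lastCases a (fun _ => c))

theorem bsMat_mul_apply (c a : F) (G : Matrix (Fin (m + 1)) (Fin (m + 1)) F)
    (x y : Fin (m + 1)) :
    ((bsMat c a : Matrix (Fin (m + 1)) (Fin (m + 1)) F) * G) x y =
      (Fin.lastCases a (fun _ => c) x : F) * G x y := by
  rw [bsMat, Matrix.diagonal_mul]

theorem mul_bsMat_apply (c a : F) (G : Matrix (Fin (m + 1)) (Fin (m + 1)) F)
    (x y : Fin (m + 1)) :
    (G * (bsMat c a : Matrix (Fin (m + 1)) (Fin (m + 1)) F)) x y =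
      G x y * (Fin.lastCases a (fun _ => c) y : F) := by
  rw [bsMat, Matrix.mul_diagonal]

theorem tMatL_eq_bsMat : tMatL F m = bsMat (-1) 1 := by
  rw [tMatL, bsMat]
  congr 1
  funext i
  refine Fin.lastCases ?_ (fun i' => ?_) i
  · rw [tMatL_last]; simp
  · rw [tMatL_castSucc]; simp

theorem bsMat_mul_bsMat (c a c' a' : F) :
    (bsMat c a : Matrix (Fin (m + 1)) (Fin (m + 1)) F) * bsMat c' a' = bsMat (c * c') (a * a') := by
  rw [bsMat, bsMat, bsMat, Matrix.diagonal_mul_diagonal]
  congr 1
  funext i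
  refine Fin.lastCases ?_ (fun i' => ?_) i <;> simp

theorem bsMat_one_one : (bsMat 1 1 : Matrix (Fin (m + 1)) (Fin (m + 1)) F) = 1 := by
  rw [bsMat, ← Matrix.diagonal_one]
  congr 1
  funext i
  refine Fin.lastCases ?_ (fun i' => ?_) i <;> simp

theorem bsMat_last (c a : F) :
    (bsMat c a : Matrix (Fin (m + 1)) (Fin (m + 1)) F) (Fin.last m) (Fin.last m) = a := by
  simp [bsMat]

theorem bsMat_castSucc (c a : F) (i : Fin m) :
    (bsMat c a : Matrix (Fin (m + 1)) (Fin (m + 1)) F) i.castSucc i.castSucc = c := by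
  simp [bsMat]

theorem det_bsMat (c a : F) :
    (bsMat c a : Matrix (Fin (m + 1)) (Fin (m + 1)) F).det = c ^ m * a := by
  rw [bsMat, Matrix.det_diagonal, Fin.prod_univ_castSucc]
  simp

theorem bsMat_comm_blkL (c a : F) (A : Matrix (Fin m) (Fin m) F) :
    blkL A * bsMat c a = bsMat c a * blkL A := by
  ext i j
  rw [bsMat_mul_apply, mul_bsMat_apply]
  refine Fin.lastCases ?_ (fun i' => ?_) i <;> refine Fin.lastCases ?_ (fun j' => ?_) j <;>
    simp [mul_comm]

theorem mul_blkL_cc (M : Matrix (Fin (m + 1)) (Fin (m + 1)) F) (A : Matrix (Fin m) (Fin m) F)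
    (i j : Fin m) :
    (M * blkL A) i.castSucc j.castSucc = ∑ x, M i.castSucc x.castSucc * A x j := by
  simp [Matrix.mul_apply, Fin.sum_univ_castSucc]

theorem mul_blkL_cl (M : Matrix (Fin (m + 1)) (Fin (m + 1)) F) (A : Matrix (Fin m) (Fin m) F)
    (i : Fin m) : (M * blkL A) i.castSucc (Fin.last m) = M i.castSucc (Fin.last m) := by
  simp [Matrix.mul_apply, Fin.sum_univ_castSucc]

theorem mul_blkL_lc (M : Matrix (Fin (m + 1)) (Fin (m + 1)) F) (A : Matrix (Fin m) (Fin m) F)
    (j : Fin m) :
    (M * blkL A) (Fin.last m) j.castSucc = ∑ x, M (Fin.last m) x.castSucc * A x j := by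
  simp [Matrix.mul_apply, Fin.sum_univ_castSucc]

theorem blkL_mul_cc (M : Matrix (Fin (m + 1)) (Fin (m + 1)) F) (A : Matrix (Fin m) (Fin m) F)
    (i j : Fin m) :
    (blkL A * M) i.castSucc j.castSucc = ∑ x, A i x * M x.castSucc j.castSucc := by
  simp [Matrix.mul_apply, Fin.sum_univ_castSucc]

theorem blkL_mul_cl (M : Matrix (Fin (m + 1)) (Fin (m + 1)) F) (A : Matrix (Fin m) (Fin m) F)
    (i : Fin m) :
    (blkL A * M) i.castSucc (Fin.last m) = ∑ x, A i x * M x.castSucc (Fin.last m) := by
  simp [Matrix.mul_apply, Fin.sum_univ_castSucc]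

theorem blkL_mul_lc (M : Matrix (Fin (m + 1)) (Fin (m + 1)) F) (A : Matrix (Fin m) (Fin m) F)
    (j : Fin m) : (blkL A * M) (Fin.last m) j.castSucc = M (Fin.last m) j.castSucc := by
  simp [Matrix.mul_apply, Fin.sum_univ_castSucc]

/-- A matrix commuting with all `diag(A, 1)`, `A ∈ SL_m`, is block scalar. -/
theorem exists_bsMat_of_comm (hm : 2 ≤ m) (M : Matrix (Fin (m + 1)) (Fin (m + 1)) F)
    (h : ∀ A : Matrix.SpecialLinearGroup (Fin m) F,
      blkL (A : Matrix (Fin m) (Fin m) F) * M = M * blkL (A : Matrix (Fin m) (Fin m) F)) :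
    ∃ c a : F, M = bsMat c a := by
  have hnt : Nontrivial (Fin m) := Fin.nontrivial_iff_two_le.mpr hm
  have h1 : ∀ i : Fin m, M i.castSucc (Fin.last m) = 0 := by
    intro i
    obtain ⟨k, hk⟩ := exists_ne i
    have h0 := congrFun (congrFun (h (Matrix.SpecialLinearGroup.transvection hk (1 : F)))
      k.castSucc) (Fin.last m)
    rw [blkL_mul_cl, mul_blkL_cl] at h0
    have e : (Matrix.SpecialLinearGroup.transvection hk (1 : F) :
        Matrix (Fin m) (Fin m) F) = 1 + Matrix.single k i 1 := rfl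
    rw [e] at h0
    simp only [Matrix.add_apply, add_mul, Finset.sum_add_distrib, Matrix.one_apply,
      Matrix.single_apply, ite_mul, one_mul, zero_mul, Finset.sum_ite_eq,
      Finset.mem_univ, if_true, true_and] at h0
    exact add_eq_left.mp h0
  have h2 : ∀ j : Fin m, M (Fin.last m) j.castSucc = 0 := by
    intro j
    obtain ⟨k, hk⟩ := exists_ne j
    have h0 := congrFun (congrFun (h (Matrix.SpecialLinearGroup.transvection (Ne.symm hk) (1 : F)))
      (Fin.last m)) k.castSucc
    rw [blkL_mul_lc, mul_blkL_lc] at h0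
    have e : (Matrix.SpecialLinearGroup.transvection (Ne.symm hk) (1 : F) :
        Matrix (Fin m) (Fin m) F) = 1 + Matrix.single j k 1 := rfl
    rw [e] at h0
    simp only [Matrix.add_apply, mul_add, Finset.sum_add_distrib, Matrix.one_apply,
      Matrix.single_apply, mul_ite, mul_one, mul_zero, Finset.sum_ite_eq', Finset.sum_ite_eq,
      Finset.mem_univ, if_true, and_true] at h0
    exact (add_eq_left.mp h0.symm)
  have h3 : M.submatrix Fin.castSucc Fin.castSucc ∈ Set.range (Matrix.scalar (Fin m)) := by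
    apply Matrix.mem_range_scalar_of_commute_transvectionStruct
    intro t
    show t.toMatrix * M.submatrix Fin.castSucc Fin.castSucc =
      M.submatrix Fin.castSucc Fin.castSucc * t.toMatrix
    ext i j
    have h0 := congrFun (congrFun (h (Matrix.SpecialLinearGroup.transvection t.hij t.c))
      i.castSucc) j.castSucc
    rw [blkL_mul_cc, mul_blkL_cc] at h0
    rw [Matrix.mul_apply, Matrix.mul_apply]
    exact h0
  obtain ⟨c, hc⟩ := h3
  refine ⟨c, M (Fin.last m) (Fin.last m), ?_⟩
  ext i j
  refine Fin.lastCases ?_ (fun i' => ?_) i <;> refine Fin.lastCases ?_ (fun j' => ?_) j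
  · rw [bsMat_last]
  · rw [h2, bsMat, Matrix.diagonal_apply_ne _ (Fin.castSucc_lt_last _).ne']
  · rw [h1, bsMat, Matrix.diagonal_apply_ne _ (Fin.castSucc_lt_last _).ne]
  · have h0 := congrFun (congrFun hc i') j'
    rw [Matrix.submatrix_apply] at h0
    rw [← h0, Matrix.scalar_apply, bsMat, Matrix.diagonal_apply, Matrix.diagonal_apply]
    simp

theorem mem_centralizer_range_blkSL (hm : 2 ≤ m)
    {g : Matrix.SpecialLinearGroup (Fin (m + 1)) F} :
    g ∈ Subgroup.centralizer
      ((blkSL : Matrix.SpecialLinearGroup (Fin m) F →*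
        Matrix.SpecialLinearGroup (Fin (m + 1)) F).range :
        Set (Matrix.SpecialLinearGroup (Fin (m + 1)) F)) ↔
      ∃ c a : F, (g : Matrix (Fin (m + 1)) (Fin (m + 1)) F) = bsMat c a := by
  rw [Subgroup.mem_centralizer_iff]
  constructor
  · intro h
    apply exists_bsMat_of_comm hm
    intro A
    have h1 := h (blkSL A) ⟨A, rfl⟩
    exact congrArg (fun u : Matrix.SpecialLinearGroup (Fin (m + 1)) F =>
      (u : Matrix (Fin (m + 1)) (Fin (m + 1)) F)) h1
  · rintro ⟨c, a, hg⟩ h ⟨A, rfl⟩
    apply Subtype.ext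
    simp only [Matrix.SpecialLinearGroup.coe_mul, blkSL_coe, hg]
    exact bsMat_comm_blkL c a _

theorem det_eq_zero_of_block_zero (hm : 2 ≤ m) (G : Matrix (Fin (m + 1)) (Fin (m + 1)) F)
    (h : ∀ i j : Fin m, G i.castSucc j.castSucc = 0) : G.det = 0 := by
  rw [Matrix.det_apply]
  apply Finset.sum_eq_zero
  intro σ _
  have hnt : Nontrivial (Fin m) := Fin.nontrivial_iff_two_le.mpr hm
  obtain ⟨i0, i1, h01⟩ := exists_pair_ne (Fin m)
  have hex : ∃ j : Fin m, ∃ i : Fin m, σ j.castSucc = i.castSucc := by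
    by_cases h0 : σ i0.castSucc = Fin.last m
    · have h1 : σ i1.castSucc ≠ Fin.last m := by
        intro h1
        apply h01
        have := σ.injective (h0.trans h1.symm)
        exact Fin.castSucc_injective _ this
      obtain ⟨i, hi⟩ := Fin.exists_castSucc_eq.mpr h1
      exact ⟨i1, i, hi.symm⟩
    · obtain ⟨i, hi⟩ := Fin.exists_castSucc_eq.mpr h0
      exact ⟨i0, i, hi.symm⟩
  obtain ⟨j, i, hji⟩ := hex
  rw [Finset.prod_eq_zero (Finset.mem_univ j.castSucc) (by rw [hji]; exact h i j), smul_zero]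

theorem offdiag_zero_of_comm (hm : 2 ≤ m) (g : Matrix.SpecialLinearGroup (Fin (m + 1)) F)
    (c a c' a' : F)
    (hz : (bsMat c a : Matrix (Fin (m + 1)) (Fin (m + 1)) F).det = 1)
    (hz' : (bsMat c' a' : Matrix (Fin (m + 1)) (Fin (m + 1)) F).det = 1)
    (hcomm : (bsMat c a : Matrix (Fin (m + 1)) (Fin (m + 1)) F) *
      (g : Matrix (Fin (m + 1)) (Fin (m + 1)) F) =
      (g : Matrix (Fin (m + 1)) (Fin (m + 1)) F) * bsMat c' a') (hca : c ≠ a) :
    (∀ i : Fin m, (g : Matrix (Fin (m + 1)) (Fin (m + 1)) F) i.castSucc (Fin.last m) = 0) ∧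
    (∀ j : Fin m, (g : Matrix (Fin (m + 1)) (Fin (m + 1)) F) (Fin.last m) j.castSucc = 0) := by
  have hent : ∀ x y : Fin (m + 1),
      (Fin.lastCases a (fun _ => c) x : F) * (g : Matrix (Fin (m + 1)) (Fin (m + 1)) F) x y =
      (g : Matrix (Fin (m + 1)) (Fin (m + 1)) F) x y * (Fin.lastCases a' (fun _ => c') y : F) := by
    intro x y
    have := congrFun (congrFun hcomm x) y
    rw [bsMat_mul_apply, mul_bsMat_apply] at this
    exact this
  have hcc : c = c' := by
    by_contra hne
    have h0 : ∀ i j : Fin m,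
        (g : Matrix (Fin (m + 1)) (Fin (m + 1)) F) i.castSucc j.castSucc = 0 := by
      intro i j
      have h1 := hent i.castSucc j.castSucc
      simp only [Fin.lastCases_castSucc] at h1
      have h2 : (c - c') * (g : Matrix (Fin (m + 1)) (Fin (m + 1)) F) i.castSucc j.castSucc
          = 0 := by linear_combination h1
      exact (mul_eq_zero.mp h2).resolve_left (sub_ne_zero.mpr hne)
    have hd := det_eq_zero_of_block_zero hm _ h0
    rw [g.2] at hd
    exact one_ne_zero hd
  subst hcc
  rw [det_bsMat] at hz hz'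
  have hcm : c ^ m ≠ 0 := by
    intro h
    rw [h, zero_mul] at hz
    exact zero_ne_one hz
  have haa : a = a' := mul_left_cancel₀ hcm (hz.trans hz'.symm)
  subst haa
  constructor
  · intro i
    have h1 := hent i.castSucc (Fin.last m)
    simp only [Fin.lastCases_castSucc, Fin.lastCases_last] at h1
    have h2 : (c - a) * (g : Matrix (Fin (m + 1)) (Fin (m + 1)) F) i.castSucc (Fin.last m)
        = 0 := by linear_combination h1
    exact (mul_eq_zero.mp h2).resolve_left (sub_ne_zero.mpr hca)
  · intro j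
    have h1 := hent (Fin.last m) j.castSucc
    simp only [Fin.lastCases_castSucc, Fin.lastCases_last] at h1
    have h2 : (c - a) * (g : Matrix (Fin (m + 1)) (Fin (m + 1)) F) (Fin.last m) j.castSucc
        = 0 := by linear_combination -h1
    exact (mul_eq_zero.mp h2).resolve_left (sub_ne_zero.mpr hca)

theorem mem_centralizer_centralizer_of_blockdiag (hm : 2 ≤ m)
    (g : Matrix.SpecialLinearGroup (Fin (m + 1)) F)
    (hg1 : ∀ i : Fin m, (g : Matrix (Fin (m + 1)) (Fin (m + 1)) F) i.castSucc (Fin.last m) = 0)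
    (hg2 : ∀ j : Fin m, (g : Matrix (Fin (m + 1)) (Fin (m + 1)) F) (Fin.last m) j.castSucc = 0) :
    g ∈ Subgroup.centralizer ((Subgroup.centralizer
      ((blkSL : Matrix.SpecialLinearGroup (Fin m) F →*
        Matrix.SpecialLinearGroup (Fin (m + 1)) F).range :
        Set (Matrix.SpecialLinearGroup (Fin (m + 1)) F)) :
        Subgroup (Matrix.SpecialLinearGroup (Fin (m + 1)) F)) :
        Set (Matrix.SpecialLinearGroup (Fin (m + 1)) F)) := by
  rw [Subgroup.mem_centralizer_iff]
  intro w hw
  rw [SetLike.mem_coe, mem_centralizer_range_blkSL hm] at hw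
  obtain ⟨c, a, hw⟩ := hw
  apply Subtype.ext
  simp only [Matrix.SpecialLinearGroup.coe_mul, hw]
  ext x y
  rw [bsMat_mul_apply, mul_bsMat_apply]
  refine Fin.lastCases ?_ (fun i' => ?_) x <;> refine Fin.lastCases ?_ (fun j' => ?_) y <;>
    simp [hg1, hg2, mul_comm]

theorem centralizer_tL_le_normalizer (h2 : (2 : F) ≠ 0)
    (t : Matrix.SpecialLinearGroup (Fin (m + 1)) F)
    (ht : (t : Matrix (Fin (m + 1)) (Fin (m + 1)) F) = tMatL F m) :
    Subgroup.centralizer ({t} : Set (Matrix.SpecialLinearGroup (Fin (m + 1)) F)) ≤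
      Subgroup.normalizer ((blkSL : Matrix.SpecialLinearGroup (Fin m) F →*
        Matrix.SpecialLinearGroup (Fin (m + 1)) F).range :
        Set (Matrix.SpecialLinearGroup (Fin (m + 1)) F)) := by
  have hn : (blkCL t ht).range.Normal := by rw [range_blkCL h2]; infer_instance
  have h1 := Subgroup.le_normalizer_map (H := (blkCL t ht).range)
    (Subgroup.centralizer ({t} : Set (Matrix.SpecialLinearGroup (Fin (m + 1)) F))).subtype
  rw [Subgroup.normalizer_eq_top, ← MonoidHom.range_eq_map, Subgroup.range_subtype,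
    MonoidHom.map_range] at h1
  exact h1

theorem range_blkSL_standard [Fintype F] (hF : Odd (Fintype.card F)) (hm : 6 ≤ m)
    (hme : Even m) (t : Matrix.SpecialLinearGroup (Fin (m + 1)) F)
    (ht : (t : Matrix (Fin (m + 1)) (Fin (m + 1)) F) = tMatL F m) :
    Cfsg.IsStandardSubgroup (blkSL : Matrix.SpecialLinearGroup (Fin m) F →*
        Matrix.SpecialLinearGroup (Fin (m + 1)) F).range := by
  have h2 : (2 : F) ≠ 0 := two_ne_zero_of_odd_card hF
  have hm2 : 2 ≤ m := by omega
  have hqs : Cfsg.IsQuasisimple ↥(blkSL : Matrix.SpecialLinearGroup (Fin m) F →*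
      Matrix.SpecialLinearGroup (Fin (m + 1)) F).range :=
    qs_of_mulEquiv (MonoidHom.ofInjective blkSL_injective)
      (sl_quasisimple hF m hm2 (by omega))
  -- facts about `t`
  have htZ : t ∈ Subgroup.centralizer
      ((blkSL : Matrix.SpecialLinearGroup (Fin m) F →*
        Matrix.SpecialLinearGroup (Fin (m + 1)) F).range :
        Set (Matrix.SpecialLinearGroup (Fin (m + 1)) F)) := by
    rw [mem_centralizer_range_blkSL hm2]
    exact ⟨-1, 1, by rw [ht, tMatL_eq_bsMat]⟩
  have htsq : t * t = 1 := by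
    apply Subtype.ext
    simp only [Matrix.SpecialLinearGroup.coe_mul, ht, tMatL_eq_bsMat, bsMat_mul_bsMat,
      Matrix.SpecialLinearGroup.coe_one]
    rw [← bsMat_one_one]
    congr 1 <;> ring
  have htne : t ≠ 1 := by
    intro h
    have h1 := congrArg (fun u : Matrix.SpecialLinearGroup (Fin (m + 1)) F =>
      (u : Matrix (Fin (m + 1)) (Fin (m + 1)) F) (Fin.castSucc (⟨0, by omega⟩ : Fin m))
        (Fin.castSucc (⟨0, by omega⟩ : Fin m))) h
    simp only [ht, tMatL_eq_bsMat, Matrix.SpecialLinearGroup.coe_one] at h1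
    rw [bsMat_castSucc, Matrix.one_apply_eq] at h1
    apply h2
    linear_combination (-1 : F) * h1
  have hto : orderOf t = 2 := orderOf_eq_prime (by rw [pow_two]; exact htsq) htne
  refine ⟨hqs, ⟨?_, ?_⟩, ?_, ?_⟩
  · -- even order
    have ho : orderOf (⟨t, htZ⟩ : ↥(Subgroup.centralizer
        ((blkSL : Matrix.SpecialLinearGroup (Fin m) F →*
          Matrix.SpecialLinearGroup (Fin (m + 1)) F).range :
          Set (Matrix.SpecialLinearGroup (Fin (m + 1)) F)))) = 2 := by
      rw [← Subgroup.orderOf_coe]; exact hto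
    rw [even_iff_two_dvd, ← ho]
    exact orderOf_dvd_natCard _
  · -- odd intersections
    intro g hg
    by_contra hodd
    rw [Nat.not_odd_iff_even, even_iff_two_dvd] at hodd
    have : Fact (Nat.Prime 2) := ⟨Nat.prime_two⟩
    obtain ⟨z, hz⟩ := exists_prime_orderOf_dvd_card' 2 hodd
    have hzZ := z.2.1
    obtain ⟨z', hz'Z, hzz'⟩ := Subgroup.mem_map.mp z.2.2
    obtain ⟨c, a, hca⟩ := (mem_centralizer_range_blkSL hm2).mp hzZ
    obtain ⟨c', a', hca'⟩ := (mem_centralizer_range_blkSL hm2).mp hz'Z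
    have hcomm : (z : Matrix.SpecialLinearGroup (Fin (m + 1)) F) * g = g * z' := by
      rw [← hzz']
      simp [MulAut.conj_apply]
    have hcommM : (bsMat c a : Matrix (Fin (m + 1)) (Fin (m + 1)) F) *
        (g : Matrix (Fin (m + 1)) (Fin (m + 1)) F) =
        (g : Matrix (Fin (m + 1)) (Fin (m + 1)) F) * bsMat c' a' := by
      have h0 := congrArg (fun u : Matrix.SpecialLinearGroup (Fin (m + 1)) F =>
        (u : Matrix (Fin (m + 1)) (Fin (m + 1)) F)) hcomm
      simp only [Matrix.SpecialLinearGroup.coe_mul, hca, hca'] at h0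
      exact h0
    have hdz : (bsMat c a : Matrix (Fin (m + 1)) (Fin (m + 1)) F).det = 1 := by
      rw [← hca]; exact (z : Matrix.SpecialLinearGroup (Fin (m + 1)) F).2
    have hdz' : (bsMat c' a' : Matrix (Fin (m + 1)) (Fin (m + 1)) F).det = 1 := by
      rw [← hca']; exact z'.2
    by_cases hne : c = a
    · subst hne
      have ho : orderOf (z : Matrix.SpecialLinearGroup (Fin (m + 1)) F) = 2 := by
        rw [Subgroup.orderOf_coe]; exact hz
      have hsq : (z : Matrix.SpecialLinearGroup (Fin (m + 1)) F) *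
          (z : Matrix.SpecialLinearGroup (Fin (m + 1)) F) = 1 := by
        rw [← pow_two, ← ho]; exact pow_orderOf_eq_one _
      have hsqM : (bsMat (c * c) (c * c) : Matrix (Fin (m + 1)) (Fin (m + 1)) F) = 1 := by
        have h0 := congrArg (fun u : Matrix.SpecialLinearGroup (Fin (m + 1)) F =>
          (u : Matrix (Fin (m + 1)) (Fin (m + 1)) F)) hsq
        simp only [Matrix.SpecialLinearGroup.coe_mul, hca, bsMat_mul_bsMat,
          Matrix.SpecialLinearGroup.coe_one] at h0
        exact h0
      have hcc : c * c = 1 := by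
        have h0 := congrFun (congrFun hsqM (Fin.last m)) (Fin.last m)
        rw [bsMat_last, Matrix.one_apply_eq] at h0
        exact h0
      have hc1 : c ≠ 1 := by
        rintro rfl
        have h0 : (z : Matrix.SpecialLinearGroup (Fin (m + 1)) F) = 1 := by
          apply Subtype.ext
          rw [hca, Matrix.SpecialLinearGroup.coe_one]
          exact bsMat_one_one
        rw [h0, orderOf_one] at ho
        omega
      have hcm1 : c = -1 := by
        have h0 : (c - 1) * (c + 1) = 0 := by linear_combination hcc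
        rcases mul_eq_zero.mp h0 with h | h
        · exact absurd (sub_eq_zero.mp h) hc1
        · exact eq_neg_of_add_eq_zero_left h
      rw [det_bsMat, hcm1, hme.neg_one_pow, one_mul] at hdz
      apply h2
      linear_combination (-1 : F) * hdz
    · obtain ⟨hg1, hg2⟩ := offdiag_zero_of_comm hm2 g c a c' a' hdz hdz' hcommM hne
      exact hg (Subgroup.centralizer_le_normalizer _
        (mem_centralizer_centralizer_of_blockdiag hm2 g hg1 hg2))
  · -- no commuting conjugates
    intro g _ hbot
    have h1 : (blkSL : Matrix.SpecialLinearGroup (Fin m) F →*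
        Matrix.SpecialLinearGroup (Fin (m + 1)) F).range.map (MulAut.conj g).toMonoidHom ≤
        Subgroup.centralizer
          ((blkSL : Matrix.SpecialLinearGroup (Fin m) F →*
            Matrix.SpecialLinearGroup (Fin (m + 1)) F).range :
            Set (Matrix.SpecialLinearGroup (Fin (m + 1)) F)) := by
      rw [Subgroup.commutator_comm] at hbot
      exact Subgroup.commutator_eq_bot_iff_le_centralizer.mp hbot
    have hqs' : Cfsg.IsQuasisimple ↥((blkSL : Matrix.SpecialLinearGroup (Fin m) F →*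
        Matrix.SpecialLinearGroup (Fin (m + 1)) F).range.map (MulAut.conj g).toMonoidHom) :=
      qs_of_mulEquiv (Subgroup.equivMapOfInjective _ _ (MulAut.conj g).injective) hqs
    apply qs_not_solvable hqs'
    apply Group.isSolvable_of_comm
    intro x y
    obtain ⟨c, a, hx⟩ := (mem_centralizer_range_blkSL hm2).mp (h1 x.2)
    obtain ⟨c', a', hy⟩ := (mem_centralizer_range_blkSL hm2).mp (h1 y.2)
    apply Subtype.ext
    apply Subtype.ext
    simp only [Subgroup.coe_mul, Matrix.SpecialLinearGroup.coe_mul, hx, hy, bsMat_mul_bsMat]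
    congr 1 <;> ring
  · -- normalizers
    apply le_antisymm (normalizer_le_normalizer_centralizer_aux _)
    intro g hg
    have hz := (Subgroup.mem_normalizer_iff.mp hg t).mp htZ
    obtain ⟨c, a, hca⟩ := (mem_centralizer_range_blkSL hm2).mp hz
    have hsq : (g * t * g⁻¹) * (g * t * g⁻¹) = 1 := by
      calc (g * t * g⁻¹) * (g * t * g⁻¹) = g * (t * t) * g⁻¹ := by group
        _ = 1 := by rw [htsq]; group
    have hsqM : (bsMat (c * c) (a * a) : Matrix (Fin (m + 1)) (Fin (m + 1)) F) = 1 := by
      have h0 := congrArg (fun u : Matrix.SpecialLinearGroup (Fin (m + 1)) F =>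
        (u : Matrix (Fin (m + 1)) (Fin (m + 1)) F)) hsq
      simp only [Matrix.SpecialLinearGroup.coe_mul (g * t * g⁻¹) (g * t * g⁻¹), hca,
        bsMat_mul_bsMat, Matrix.SpecialLinearGroup.coe_one] at h0
      exact h0
    have hcc : c * c = 1 := by
      have h0 := congrFun (congrFun hsqM (Fin.castSucc (⟨0, by omega⟩ : Fin m)))
        (Fin.castSucc (⟨0, by omega⟩ : Fin m))
      rw [bsMat_castSucc, Matrix.one_apply_eq] at h0
      exact h0
    have hdet : c ^ m * a = 1 := by
      rw [← det_bsMat, ← hca]; exact (g * t * g⁻¹).2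
    have hcm : c ^ m = 1 := by
      obtain ⟨k, hk⟩ := hme
      rw [hk, ← two_mul, pow_mul, pow_two, hcc, one_pow]
    have ha : a = 1 := by rw [hcm, one_mul] at hdet; exact hdet
    have hc1 : c ≠ 1 := by
      rintro rfl
      have h1 : g * t * g⁻¹ = 1 := by
        apply Subtype.ext
        rw [hca, ha, Matrix.SpecialLinearGroup.coe_one]
        exact bsMat_one_one
      apply htne
      calc t = g⁻¹ * (g * t * g⁻¹) * g := by group
        _ = 1 := by rw [h1]; group
    have hcm1 : c = -1 := by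
      have h0 : (c - 1) * (c + 1) = 0 := by linear_combination hcc
      rcases mul_eq_zero.mp h0 with h | h
      · exact absurd (sub_eq_zero.mp h) hc1
      · exact eq_neg_of_add_eq_zero_left h
    have hzt : g * t * g⁻¹ = t := by
      apply Subtype.ext
      rw [hca, hcm1, ha, ht, tMatL_eq_bsMat]
    have hgC : g ∈ Subgroup.centralizer
        ({t} : Set (Matrix.SpecialLinearGroup (Fin (m + 1)) F)) := by
      rw [Subgroup.mem_centralizer_iff]
      intro h hh
      rw [Set.mem_singleton_iff] at hh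
      subst hh
      calc h * g = (g * h * g⁻¹) * g := by rw [hzt]
        _ = g * h := by group
    exact centralizer_tL_le_normalizer h2 t ht hgC

theorem sl_layer_centralizer_standard {F : Type*} [Field F] [Fintype F]
    (hF : Odd (Fintype.card F)) (m : ℕ) (hm : 6 ≤ m) (hme : Even m)
    (t : Matrix.SpecialLinearGroup (Fin (m + 1)) F)
    (ht : (t : Matrix (Fin (m + 1)) (Fin (m + 1)) F) = tMatL F m) :
    Cfsg.IsStandardSubgroup ((Cfsg.layer ↥(Subgroup.centralizer
        ({t} : Set (Matrix.SpecialLinearGroup (Fin (m + 1)) F)))).map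
      (Subgroup.centralizer ({t} : Set (Matrix.SpecialLinearGroup (Fin (m + 1)) F))).subtype) := by
  rw [layer_map_eq_range_blkSL hF (by omega) (by omega) t ht]
  exact range_blkSL_standard hF hm hme t ht

end slstd

end Cfsg.Agent.Lib.Helper11
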