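import Mathlib
import Cfsg.Prelude.Def_Balance
import Cfsg.Agent.Lib.Helper10.PComp
import Cfsg.Agent.Lib.Helper10.LBal2
import Cfsg.Agent.Lib.Helper11.ExtLayer

set_option autoImplicit false

namespace Cfsg.Agent.Lib.Helper11

open scoped commutatorElement

section TwoComp

universe u

variable {X : Type u} [Group X] [Finite X] (p : ℕ) [hp : Fact p.Prime]

/-- An element whose image normalizes the image of a `p`-component normalizes it. -/
theorem pcomp_mem_normalizer_of_map {K : Subgroup X} (hK : Cfsg.IsPComponent p K) {g : X}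
    (h : (K.map (MulAut.conj g).toMonoidHom).map (QuotientGroup.mk' (Cfsg.pPrimeCore p X)) =
      K.map (QuotientGroup.mk' (Cfsg.pPrimeCore p X))) :
    g ∈ Subgroup.normalizer (K : Set X) := by
  rw [Cfsg.Agent.Lib.Helper21.mem_normalizer_iff_map]
  exact Cfsg.Agent.Lib.Helper10.pcomp_unique p
    (Cfsg.Agent.Lib.Helper11.pComponent_map_mulEquiv p hK (MulAut.conj g)) hK h

/-- `O_{p'}(X)` normalizes every `p`-component. -/
theorem pPrimeCore_le_normalizer_pcomp {K : Subgroup X} (hK : Cfsg.IsPComponent p K) :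
    Cfsg.pPrimeCore p X ≤ Subgroup.normalizer (K : Set X) := by
  intro g hg
  apply pcomp_mem_normalizer_of_map p hK
  have key : ∀ k : X, QuotientGroup.mk' (Cfsg.pPrimeCore p X) ((MulAut.conj g) k) =
      QuotientGroup.mk' (Cfsg.pPrimeCore p X) k := by
    intro k
    have h1 : QuotientGroup.mk' (Cfsg.pPrimeCore p X) g = 1 := (QuotientGroup.eq_one_iff g).mpr hg
    rw [MulAut.conj_apply, map_mul, map_mul, map_inv, h1, one_mul, inv_one, mul_one]
  ext y
  constructor
  · rintro ⟨z, ⟨k, hk, rfl⟩, rfl⟩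
    exact ⟨k, hk, (key k).symm⟩
  · rintro ⟨k, hk, rfl⟩
    exact ⟨(MulAut.conj g) k, ⟨k, hk, rfl⟩, key k⟩

/-- The centralizer of a Sylow `p`-subgroup of a `p`-component normalizes the `p`-component. -/
theorem centralizer_le_normalizer_pcomp {K : Subgroup X} (hK : Cfsg.IsPComponent p K)
    {S : Subgroup X} (hS : IsPGroup p S) (hSK : S ≤ K) (hidx : ¬ p ∣ S.relIndex K) :
    Subgroup.centralizer (S : Set X) ≤ Subgroup.normalizer (K : Set X) := by
  intro w hw
  by_contra hne
  rw [Cfsg.Agent.Lib.Helper21.mem_normalizer_iff_map] at hne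
  have hKw : Cfsg.IsPComponent p (K.map (MulAut.conj w).toMonoidHom) :=
    Cfsg.Agent.Lib.Helper11.pComponent_map_mulEquiv p hK (MulAut.conj w)
  have hne' : (K.map (MulAut.conj w).toMonoidHom).map (QuotientGroup.mk' (Cfsg.pPrimeCore p X)) ≠
      K.map (QuotientGroup.mk' (Cfsg.pPrimeCore p X)) :=
    fun h => hne (Cfsg.Agent.Lib.Helper10.pcomp_unique p hKw hK h)
  have hcomm := Cfsg.Agent.Lib.Helper11.components_comm hKw.2.1 hK.2.1 hne'
  rw [Subgroup.commutator_eq_bot_iff_le_centralizer] at hcomm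
  have hSw : S ≤ K.map (MulAut.conj w).toMonoidHom := by
    intro s hs
    refine ⟨s, hSK hs, ?_⟩
    · have h1 := Subgroup.mem_centralizer_iff.1 hw s hs
      show w * s * w⁻¹ = s
      rw [← h1, mul_inv_cancel_right]
  have hTp : IsPGroup p ↥(S.subgroupOf K) := hS.comap_subtype
  let T : Sylow p ↥K := IsPGroup.toSylow hTp hidx
  have hf : Function.Surjective ((QuotientGroup.mk' (Cfsg.pPrimeCore p X)).subgroupMap K) :=
    MonoidHom.subgroupMap_surjective _ _
  have hPc : ((T.mapSurjective hf :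
      Sylow p ↥(K.map (QuotientGroup.mk' (Cfsg.pPrimeCore p X)))) :
      Subgroup ↥(K.map (QuotientGroup.mk' (Cfsg.pPrimeCore p X)))) ≤
      Subgroup.center ↥(K.map (QuotientGroup.mk' (Cfsg.pPrimeCore p X))) := by
    rintro y hy
    rw [Sylow.coe_mapSurjective] at hy
    obtain ⟨x, hx, rfl⟩ := hy
    rw [Subgroup.mem_center_iff]
    intro z
    apply Subtype.ext
    have hxS : (x : X) ∈ S := Subgroup.mem_subgroupOf.1 hx
    have h1 : QuotientGroup.mk' (Cfsg.pPrimeCore p X) (x : X) ∈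
        (K.map (MulAut.conj w).toMonoidHom).map (QuotientGroup.mk' (Cfsg.pPrimeCore p X)) :=
      Subgroup.mem_map_of_mem _ (hSw hxS)
    have h2 := Subgroup.mem_centralizer_iff.1 (hcomm h1) z.1 z.2
    simpa using h2
  have hcop := Cfsg.Agent.Lib.Helper10.perfect_central_sylow p hK.2.1.2.1.commutator_eq_top
    (T.mapSurjective hf) hPc
  have hle := Cfsg.Agent.Lib.Helper10.subnormal_coprime_le_pPrimeCore p hK.2.1.1 hcop
  rw [Cfsg.Agent.Lib.Helper20.pPrimeCore_quot_eq_bot p, le_bot_iff] at hle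
  have := Cfsg.Agent.Lib.Helper11.qs_nontrivial hK.2.1.2
  rw [Subgroup.nontrivial_iff_ne_bot] at this
  exact this hle

/-- A Sylow subgroup of a subgroup `N` meets a subnormal subgroup `K ≤ N` in a subgroup of
index prime to `p`. -/
theorem sylow_map_inf_subnormal_relIndex {N K : Subgroup X} (T : Sylow p ↥N) (hKN : K ≤ N)
    (hK : K.IsSubnormal) :
    ¬ p ∣ ((T : Subgroup ↥N).map N.subtype ⊓ K).relIndex K := by
  have h1 := Cfsg.Agent.Lib.Helper10.sylow_inf_subnormal T (hK.subgroupOf (K := N))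
  have e1 : ((T : Subgroup ↥N) ⊓ K.subgroupOf N) =
      ((T : Subgroup ↥N).map N.subtype ⊓ K).subgroupOf N := by
    ext x
    simp only [Subgroup.mem_subgroupOf, Subgroup.mem_inf]
    constructor
    · rintro ⟨h1, h2⟩; exact ⟨⟨x, h1, rfl⟩, h2⟩
    · rintro ⟨⟨y, hy, hyx⟩, h2⟩
      have : y = x := Subtype.ext hyx
      exact ⟨this ▸ hy, h2⟩
  rw [e1, Subgroup.relIndex_subgroupOf hKN] at h1
  exact h1

end TwoComp

end Cfsg.Agent.Lib.Helper11
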